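import Mathlib
import Cfsg.Agent.Lib.Helper52.A7.Tools

/-!
Simple groups of order `2520` without a subgroup of index `7`: the Sylow `7`-subgroups.
There are `120` of them and they are self-centralizing.
-/

set_option autoImplicit false

namespace Cfsg.Agent.Lib.Helper52.A7

open Subgroup
open Cfsg.Agent.Lib.Helper17

variable {G : Type*} [Group G] [Finite G]

omit [Group G] [Finite G] in
theorem not_prime_2520 (hG : Nat.card G = 2520) : ¬ (Nat.card G).Prime := by
  rw [hG]; norm_num

omit [Finite G] in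
/-- Fixed points of an element with `y ^ p = 1` on a finite set. -/
theorem fix_mod_prime {X : Type*} [MulAction G X] [Finite X] (p : ℕ) [Fact p.Prime] (y : G)
    (hy : y ^ p = 1) : Set.ncard {a : X | y • a = a} ≡ Nat.card X [MOD p] := by
  have hpg : IsPGroup p (zpowers y) := by
    rintro ⟨g, hg⟩
    obtain ⟨n, rfl⟩ := mem_zpowers_iff.mp hg
    refine ⟨1, ?_⟩
    apply Subtype.ext
    simp only [pow_one, Subgroup.coe_pow, Subgroup.coe_one]
    rw [← zpow_natCast, ← zpow_mul, mul_comm, zpow_mul, zpow_natCast, hy, one_zpow]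
  have h1 := hpg.card_modEq_card_fixedPoints X
  have h2 : (MulAction.fixedPoints (zpowers y) X) = {a : X | y • a = a} := by
    ext a
    constructor
    · intro ha
      exact ha ⟨y, mem_zpowers y⟩
    · intro ha c
      have hle : zpowers y ≤ MulAction.stabilizer G a := by
        rw [zpowers_le]; exact ha
      exact hle c.2
  rw [h2] at h1
  rw [Nat.card_coe_set_eq] at h1
  exact h1.symm

theorem fix_all_of_ncard {p : ℕ} [Fact p.Prime] (x : G)
    (h : Set.ncard {Q : Sylow p G | x • Q = Q} = Nat.card (Sylow p G)) :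
    ∀ Q : Sylow p G, x • Q = Q := by
  have h1 : {Q : Sylow p G | x • Q = Q} = Set.univ :=
    Set.eq_of_subset_of_ncard_le (Set.subset_univ _) (by rw [Set.ncard_univ, h])
  intro Q
  have : Q ∈ {Q : Sylow p G | x • Q = Q} := by rw [h1]; trivial
  exact this

omit [Finite G] in
theorem conj_mem_centralizer_of_mem_normalizer {T : Subgroup G} {n c : G}
    (hn : n ∈ normalizer (T : Set G)) (hc : c ∈ centralizer (T : Set G)) :
    n * c * n⁻¹ ∈ centralizer (T : Set G) := by
  rw [mem_centralizer_iff] at hc ⊢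
  intro g hg
  have hg' : n⁻¹ * g * n ∈ T := by
    apply ((mem_normalizer_iff.mp hn) (n⁻¹ * g * n)).mpr
    have e : n * (n⁻¹ * g * n) * n⁻¹ = g := by group
    rw [e]; exact hg
  have h1 := hc _ hg'
  calc g * (n * c * n⁻¹) = n * (n⁻¹ * g * n * c) * n⁻¹ := by group
    _ = n * (c * (n⁻¹ * g * n)) * n⁻¹ := by rw [h1]
    _ = n * c * n⁻¹ * g := by group

theorem num7 (n : ℕ) (h1 : n ∣ 360) (h2 : n % 7 = 1) :
    n = 1 ∨ n = 8 ∨ n = 15 ∨ n = 36 ∨ n = 120 := by
  have h3 : n ≤ 360 := Nat.le_of_dvd (by norm_num) h1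
  have key : ∀ j < 52, (7 * j + 1) ∣ 360 → (j = 0 ∨ j = 1 ∨ j = 2 ∨ j = 5 ∨ j = 17) := by
    decide
  have h4 : n = 7 * (n / 7) + 1 := by omega
  have h5 := key (n / 7) (by omega) (by rw [← h4]; exact h1)
  omega

theorem card_sylow7_sub (hG : Nat.card G = 2520) (P : Sylow 7 G) :
    Nat.card (P : Subgroup G) = 7 := by
  have hp7 : Fact (Nat.Prime 7) := ⟨by norm_num⟩
  have := card_sylow_eq_of_card_eq (G := G) 7 1 360 (by rw [hG]; norm_num) (by norm_num) P
  simpa using this

variable [IsSimpleGroup G]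

theorem n7_ne_8 (hG : Nat.card G = 2520) : Nat.card (Sylow 7 G) ≠ 8 := by
  intro h8
  have hp7 : Fact (Nat.Prime 7) := ⟨by norm_num⟩
  have hp5 : Fact (Nat.Prime 5) := ⟨by norm_num⟩
  obtain ⟨P⟩ : Nonempty (Sylow 7 G) := inferInstance
  have hP := card_sylow7_sub hG P
  have hN := card_sylow_mul_card_normalizer (G := G) 7 P
  rw [h8, hG] at hN
  have hN315 : Nat.card (normalizer ((P : Subgroup G) : Set G)) = 315 := by omega
  obtain ⟨y, hyN, hy5⟩ := exists_orderOf_mem (normalizer ((P : Subgroup G) : Set G)) 5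
    (by rw [hN315]; norm_num)
  have hy5' : y ^ 5 = 1 := by rw [← hy5]; exact pow_orderOf_eq_one y
  have hPC : (P : Subgroup G) ≤ centralizer ({y} : Set G) :=
    le_centralizer_of_normalizes 5 (P : Subgroup G) y hyN hy5' (by
      rw [hP]
      intro d hd h5
      have : d ≤ 7 := Nat.le_of_dvd (by norm_num) hd
      interval_cases d <;> omega)
  have hyC : y ∈ centralizer ((P : Subgroup G) : Set G) := by
    rw [mem_centralizer_iff]
    intro g hg
    exact comm_of_mem_centralizer_singleton (hPC hg)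
  have h1 := fix_sylow_mod P y hyC
  have h2 := fix_mod_prime (X := Sylow 7 G) 5 y hy5'
  have h3 : Set.ncard {Q : Sylow 7 G | y • Q = Q} ≤ Nat.card (Sylow 7 G) := Set.ncard_le_card _
  rw [h8] at h2 h3
  have h4 : Set.ncard {Q : Sylow 7 G | y • Q = Q} = 8 := by
    unfold Nat.ModEq at h2; omega
  have h5 := fix_all_of_ncard y (by rw [h4, h8])
  have h6 := eq_one_of_fix_all (by rw [h8]; norm_num) y h5
  rw [h6, orderOf_one] at hy5
  omega

theorem n7_ne_15 (hG : Nat.card G = 2520) : Nat.card (Sylow 7 G) ≠ 15 := by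
  intro h15
  have hnp := not_prime_2520 hG
  have hp7 : Fact (Nat.Prime 7) := ⟨by norm_num⟩
  have hp2 : Fact (Nat.Prime 2) := ⟨by norm_num⟩
  obtain ⟨P⟩ : Nonempty (Sylow 7 G) := inferInstance
  have hP := card_sylow7_sub hG P
  have hN := card_sylow_mul_card_normalizer (G := G) 7 P
  rw [h15, hG] at hN
  have hN168 : Nat.card (normalizer ((P : Subgroup G) : Set G)) = 168 := by omega
  obtain ⟨hr6, hrC⟩ := relIndex_centralizer_of_card_prime (G := G) 7 (P : Subgroup G) hP
  rw [hN168] at hrC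
  have h2C : 2 ∣ Nat.card (centralizer ((P : Subgroup G) : Set G)) := by
    generalize (centralizer ((P : Subgroup G) : Set G)).relIndex
      (normalizer ((P : Subgroup G) : Set G)) = r at hr6 hrC
    generalize Nat.card (centralizer ((P : Subgroup G) : Set G)) = c at hrC
    have hr : r ≤ 6 := Nat.le_of_dvd (by norm_num) hr6
    interval_cases r <;> omega
  obtain ⟨z, hzC, hz2⟩ := exists_orderOf_mem (centralizer ((P : Subgroup G) : Set G)) 2 h2C
  have hzz : z * z = 1 := by rw [← pow_two, ← hz2]; exact pow_orderOf_eq_one z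
  obtain ⟨c, hc⟩ := involution_fixed_mod_four hnp (X := Sylow 7 G) z hzz
  have h1 := fix_sylow_mod P z hzC
  rw [h15] at hc
  have h4 : Set.ncard {Q : Sylow 7 G | z • Q = Q} = 15 := by omega
  have h5 := fix_all_of_ncard z (by rw [h4, h15])
  have h6 := eq_one_of_fix_all (by rw [h15]; norm_num) z h5
  rw [h6, orderOf_one] at hz2
  omega

theorem n7_ne_36 (hG : Nat.card G = 2520) : Nat.card (Sylow 7 G) ≠ 36 := by
  intro h36
  have hnp := not_prime_2520 hG
  have hp7 : Fact (Nat.Prime 7) := ⟨by norm_num⟩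
  have hp5 : Fact (Nat.Prime 5) := ⟨by norm_num⟩
  have hp2 : Fact (Nat.Prime 2) := ⟨by norm_num⟩
  obtain ⟨P⟩ : Nonempty (Sylow 7 G) := inferInstance
  have hP := card_sylow7_sub hG P
  have hN := card_sylow_mul_card_normalizer (G := G) 7 P
  rw [h36, hG] at hN
  have hN70 : Nat.card (normalizer ((P : Subgroup G) : Set G)) = 70 := by omega
  obtain ⟨hr6, hrC⟩ := relIndex_centralizer_of_card_prime (G := G) 7 (P : Subgroup G) hP
  rw [hN70] at hrC
  set Y := centralizer ((P : Subgroup G) : Set G) with hY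
  have hYN : Y ≤ normalizer ((P : Subgroup G) : Set G) := Subgroup.centralizer_le_normalizer _
  have hY35 : Nat.card Y = 35 := by
    have h1 : Nat.card Y = 70 ∨ Nat.card Y = 35 := by
      generalize Y.relIndex (normalizer ((P : Subgroup G) : Set G)) = r at hr6 hrC
      generalize Nat.card Y = c at hrC
      have hr : r ≤ 6 := Nat.le_of_dvd (by norm_num) hr6
      interval_cases r <;> omega
    rcases h1 with h1 | h1
    · exfalso
      apply not_normalizer_le_centralizer hnp 7 (by rw [hG]; norm_num) P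
      have : Y = normalizer ((P : Subgroup G) : Set G) :=
        Subgroup.eq_of_le_of_card_ge hYN (by rw [h1, hN70])
      rw [← this]
    · exact h1
  have hA5 : ∀ y ∈ Y, y ≠ 1 → y ^ 5 = 1 → ∀ Q : Sylow 7 G, y • Q = Q → Q = P := by
    intro y hyY hy1 hy5 Q hQ
    have h1 := fix_sylow_mod P y hyY
    have h2 := fix_mod_prime (X := Sylow 7 G) 5 y hy5
    have h3 : Set.ncard {Q : Sylow 7 G | y • Q = Q} ≤ Nat.card (Sylow 7 G) := Set.ncard_le_card _
    rw [h36] at h2 h3
    have h4 : Set.ncard {Q : Sylow 7 G | y • Q = Q} = 1 := by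
      have h5 : Set.ncard {Q : Sylow 7 G | y • Q = Q} = 1 ∨
          Set.ncard {Q : Sylow 7 G | y • Q = Q} = 36 := by
        unfold Nat.ModEq at h2; omega
      rcases h5 with h | h
      · exact h
      · exact absurd (eq_one_of_fix_all (by rw [h36]; norm_num) y
          (fix_all_of_ncard y (by rw [h, h36]))) hy1
    obtain ⟨Q1, hQ1⟩ := Set.ncard_eq_one.mp h4
    have hP' : P ∈ {Q : Sylow 7 G | y • Q = Q} :=
      Sylow.smul_eq_iff_mem_normalizer.mpr (hYN hyY)
    have hQ' : Q ∈ {Q : Sylow 7 G | y • Q = Q} := hQ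
    rw [hQ1] at hP' hQ'
    rw [Set.mem_singleton_iff] at hP' hQ'
    rw [hQ', hP']
  have hA : ∀ y ∈ Y, y ≠ 1 → ∀ Q : Sylow 7 G, y • Q = Q → Q = P := by
    intro y hyY hy1 Q hQ
    have hy35 : y ^ 35 = 1 := by
      have h1 : (⟨y, hyY⟩ : Y) ^ Nat.card Y = 1 := pow_card_eq_one'
      rw [hY35] at h1
      have h2 := congrArg (Subtype.val) h1
      simpa using h2
    by_cases h7 : y ^ 7 = 1
    · have ho : orderOf y = 7 := by
        have h1 := orderOf_dvd_of_pow_eq_one h7
        rcases (Nat.dvd_prime (by norm_num)).mp h1 with h | h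
        · exact absurd (orderOf_eq_one_iff.mp h) hy1
        · exact h
      have hyP : y ∈ (P : Subgroup G) :=
        mem_sylow_of_mem_normalizer_of_orderOf 7 P y (hYN hyY) 1 (by rw [ho]; norm_num)
      have hyQ : y ∈ (Q : Subgroup G) :=
        mem_sylow_of_mem_normalizer_of_orderOf 7 Q y (Sylow.smul_eq_iff_mem_normalizer.mp hQ) 1
          (by rw [ho]; norm_num)
      have e1 := zpowers_eq_of_mem_of_card_prime (by norm_num) (P : Subgroup G) hP y hyP hy1
      have e2 := zpowers_eq_of_mem_of_card_prime (by norm_num) (Q : Subgroup G)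
        (card_sylow7_sub hG Q) y hyQ hy1
      exact Sylow.ext (e2.symm.trans e1)
    · apply hA5 (y ^ 7) (Y.pow_mem hyY 7) h7 (by rw [← pow_mul]; exact hy35) Q
      exact MulAction.mem_stabilizer_iff.mp
        ((MulAction.stabilizer G Q).pow_mem (MulAction.mem_stabilizer_iff.mpr hQ) 7)
  obtain ⟨t, htN, ht2⟩ := exists_orderOf_mem (normalizer ((P : Subgroup G) : Set G)) 2
    (by rw [hN70]; norm_num)
  have htt : t * t = 1 := by rw [← pow_two, ← ht2]; exact pow_orderOf_eq_one t
  have htY : t ∉ Y := by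
    intro h
    have h1 : orderOf (⟨t, h⟩ : Y) ∣ Nat.card Y := orderOf_dvd_natCard _
    rw [hY35, ← Subgroup.orderOf_coe] at h1
    simp only at h1
    rw [ht2] at h1
    omega
  obtain ⟨c, hc⟩ := involution_fixed_mod_four hnp (X := Sylow 7 G) t htt
  rw [h36] at hc
  set F : Set (Sylow 7 G) := {Q : Sylow 7 G | t • Q = Q} with hF
  have hPF : P ∈ F := Sylow.smul_eq_iff_mem_normalizer.mpr htN
  have hF4 : 4 ≤ F.ncard := by
    have : 0 < F.ncard := (Set.ncard_pos).mpr ⟨P, hPF⟩
    omega
  obtain ⟨Q0, hQ0F, hQ0P⟩ : ∃ Q0 ∈ F, Q0 ≠ P := by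
    by_contra hcon
    have hsub : F ⊆ {P} := by
      intro Q hQ
      by_contra hne
      exact hcon ⟨Q, hQ, hne⟩
    have h1 := Set.ncard_le_ncard hsub (Set.finite_singleton P)
    rw [Set.ncard_singleton] at h1
    omega
  have hQ0t : t • Q0 = Q0 := hQ0F
  have hinj : ∀ c1 ∈ Y, ∀ c2 ∈ Y, c1 • Q0 = c2 • Q0 → c1 = c2 := by
    intro c1 h1 c2 h2 h
    have h3 : (c2⁻¹ * c1) • Q0 = Q0 := by
      rw [mul_smul, h, ← mul_smul, inv_mul_cancel, one_smul]
    by_contra hne
    have h4 : c2⁻¹ * c1 ≠ 1 := fun h5 => hne (inv_mul_eq_one.mp h5).symm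
    exact hQ0P (hA _ (Y.mul_mem (Y.inv_mem h2) h1) h4 Q0 h3)
  have hneP : ∀ c ∈ Y, c • Q0 ≠ P := by
    intro c hc h
    apply hQ0P
    have h1 : c⁻¹ • P = P :=
      Sylow.smul_eq_iff_mem_normalizer.mpr ((normalizer _).inv_mem (hYN hc))
    rw [← h1, ← h, ← mul_smul, inv_mul_cancel, one_smul]
  have himg : (fun c : G => c • Q0) '' (Y : Set G) = Set.univ \ {P} := by
    apply Set.eq_of_subset_of_ncard_le
    · rintro Q ⟨c, hc, rfl⟩
      exact ⟨trivial, fun h => hneP c hc h⟩
    · rw [Set.InjOn.ncard_image (fun c1 h1 c2 h2 h => hinj c1 h1 c2 h2 h),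
        Set.ncard_sdiff (by simp), Set.ncard_univ, h36, Set.ncard_singleton]
      have : ((Y : Set G)).ncard = Nat.card Y := (Nat.card_coe_set_eq _).symm
      rw [this, hY35]
    · exact Set.toFinite _
  have hcount : (F \ {P}).ncard = Nat.card (Y ⊓ centralizer ({t} : Set G) : Subgroup G) := by
    have e : F \ {P} = (fun c : G => c • Q0) ''
        ((Y ⊓ centralizer ({t} : Set G) : Subgroup G) : Set G) := by
      ext Q
      constructor
      · rintro ⟨hQF, hQP⟩
        have hQ' : Q ∈ Set.univ \ {P} := ⟨trivial, hQP⟩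
        rw [← himg] at hQ'
        obtain ⟨c, hcY, rfl⟩ := hQ'
        refine ⟨c, ⟨hcY, ?_⟩, rfl⟩
        have h1 : (t * c * t⁻¹) • Q0 = c • Q0 := by
          have h2 : t • (c • Q0) = c • Q0 := hQF
          have h3 : t⁻¹ • Q0 = Q0 := by rw [inv_smul_eq_iff]; exact hQ0t.symm
          rw [mul_smul, mul_smul, h3, h2]
        have h4 : t * c * t⁻¹ ∈ Y := conj_mem_centralizer_of_mem_normalizer htN hcY
        have h5 := hinj _ h4 _ hcY h1
        apply mem_centralizer_singleton_of_comm
        calc c * t = t * c * t⁻¹ * t := by rw [h5]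
          _ = t * c := by group
      · rintro ⟨c, ⟨hcY, hcC⟩, rfl⟩
        refine ⟨?_, fun h => hneP c hcY h⟩
        show t • (c • Q0) = c • Q0
        have h1 : c * t = t * c := comm_of_mem_centralizer_singleton hcC
        rw [← mul_smul, ← h1, mul_smul, hQ0t]
    rw [e, Set.InjOn.ncard_image
      (fun c1 h1 c2 h2 h => hinj c1 h1.1 c2 h2.1 h)]
    exact (Nat.card_coe_set_eq _).symm
  have hFc : F.ncard = (F \ {P}).ncard + 1 := (Set.ncard_sdiff_singleton_add_one hPF).symm
  have hdvd : Nat.card (Y ⊓ centralizer ({t} : Set G) : Subgroup G) ∣ 35 := by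
    rw [← hY35]; exact Subgroup.card_dvd_of_le inf_le_left
  have h7 : 7 ∣ Nat.card (Y ⊓ centralizer ({t} : Set G) : Subgroup G) := by
    rw [hcount] at hFc
    generalize Nat.card (Y ⊓ centralizer ({t} : Set G) : Subgroup G) = k at hFc hdvd
    have : k ≤ 35 := Nat.le_of_dvd (by norm_num) hdvd
    interval_cases k <;> omega
  obtain ⟨x, hxmem, hx7⟩ := exists_orderOf_mem _ 7 h7
  have hx1 : x ≠ 1 := by
    intro h; rw [h, orderOf_one] at hx7; omega
  have hxP : x ∈ (P : Subgroup G) :=
    mem_sylow_of_mem_normalizer_of_orderOf 7 P x (hYN hxmem.1) 1 (by rw [hx7]; norm_num)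
  have hzx : zpowers x = (P : Subgroup G) :=
    zpowers_eq_of_mem_of_card_prime (by norm_num) _ hP x hxP hx1
  apply htY
  rw [hY, mem_centralizer_iff]
  intro g hg
  rw [← hzx] at hg
  obtain ⟨n, rfl⟩ := mem_zpowers_iff.mp hg
  have hxt : Commute x t := comm_of_mem_centralizer_singleton hxmem.2
  exact (hxt.zpow_left n).eq

theorem card_sylow7 (hG : Nat.card G = 2520) : Nat.card (Sylow 7 G) = 120 := by
  have hp7 : Fact (Nat.Prime 7) := ⟨by norm_num⟩
  have h1 := num7 _ (card_sylow_dvd_of_card_eq (G := G) 7 1 360 (by rw [hG]; norm_num))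
    (card_sylow_mod (G := G) 7)
  have h2 := card_sylow_ne_one (G := G) 7 (by rw [hG]; norm_num) 5 (by norm_num) (by norm_num)
    (by rw [hG]; norm_num)
  have h3 := n7_ne_8 hG
  have h4 := n7_ne_15 hG
  have h5 := n7_ne_36 hG
  omega

theorem card_normalizer7 (hG : Nat.card G = 2520) (P : Sylow 7 G) :
    Nat.card (normalizer ((P : Subgroup G) : Set G)) = 21 := by
  have hp7 : Fact (Nat.Prime 7) := ⟨by norm_num⟩
  have hN := card_sylow_mul_card_normalizer (G := G) 7 P
  rw [card_sylow7 hG, hG] at hN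
  omega

theorem card_centralizer7 (hG : Nat.card G = 2520) (P : Sylow 7 G) :
    Nat.card (centralizer ((P : Subgroup G) : Set G)) = 7 := by
  have hnp := not_prime_2520 hG
  have hp7 : Fact (Nat.Prime 7) := ⟨by norm_num⟩
  have hP := card_sylow7_sub hG P
  have hN21 := card_normalizer7 hG P
  obtain ⟨hr6, hrC⟩ := relIndex_centralizer_of_card_prime (G := G) 7 (P : Subgroup G) hP
  rw [hN21] at hrC
  have h1 : Nat.card (centralizer ((P : Subgroup G) : Set G)) = 21 ∨
      Nat.card (centralizer ((P : Subgroup G) : Set G)) = 7 := by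
    generalize (centralizer ((P : Subgroup G) : Set G)).relIndex
      (normalizer ((P : Subgroup G) : Set G)) = r at hr6 hrC
    generalize Nat.card (centralizer ((P : Subgroup G) : Set G)) = c at hrC
    have hr : r ≤ 6 := Nat.le_of_dvd (by norm_num) hr6
    interval_cases r <;> omega
  rcases h1 with h1 | h1
  · exfalso
    apply not_normalizer_le_centralizer hnp 7 (by rw [hG]; norm_num) P
    have : centralizer ((P : Subgroup G) : Set G) = normalizer ((P : Subgroup G) : Set G) :=
      Subgroup.eq_of_le_of_card_ge (Subgroup.centralizer_le_normalizer _) (by rw [h1, hN21])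
    rw [← this]
  · exact h1

/-- Elements of order `7` are self-centralizing. -/
theorem mem_zpowers_of_comm7 (hG : Nat.card G = 2520) (x y : G) (hx : orderOf x = 7)
    (hxy : x * y = y * x) : y ∈ zpowers x := by
  have hp7 : Fact (Nat.Prime 7) := ⟨by norm_num⟩
  have hpg : IsPGroup 7 (zpowers x) :=
    IsPGroup.of_card (n := 1) (by rw [Nat.card_zpowers, hx, pow_one])
  obtain ⟨P, hP⟩ := hpg.exists_le_sylow
  have hP7 := card_sylow7_sub hG P
  have hzP : zpowers x = (P : Subgroup G) :=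
    Subgroup.eq_of_le_of_card_ge hP (by rw [hP7, Nat.card_zpowers, hx])
  have hC7 := card_centralizer7 hG P
  have hzC : zpowers x ≤ centralizer ((P : Subgroup G) : Set G) := by
    rw [zpowers_le, mem_centralizer_iff]
    intro g hg
    rw [← hzP] at hg
    obtain ⟨n, rfl⟩ := mem_zpowers_iff.mp hg
    exact ((Commute.refl x).zpow_left n).eq
  have hzC' : zpowers x = centralizer ((P : Subgroup G) : Set G) :=
    Subgroup.eq_of_le_of_card_ge hzC (by rw [hC7, Nat.card_zpowers, hx])
  rw [hzC', mem_centralizer_iff]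
  intro g hg
  rw [← hzP] at hg
  obtain ⟨n, rfl⟩ := mem_zpowers_iff.mp hg
  have hc : Commute x y := hxy
  exact (hc.zpow_left n).eq

theorem orderOf_of_comm7 (hG : Nat.card G = 2520) (x y : G) (hx : orderOf x = 7)
    (hxy : x * y = y * x) : orderOf y = 1 ∨ orderOf y = 7 := by
  have h1 := mem_zpowers_of_comm7 hG x y hx hxy
  have h2 : orderOf y ∣ 7 := by
    rw [← hx]
    exact orderOf_dvd_of_mem_zpowers h1
  exact (Nat.dvd_prime (by norm_num)).mp h2

theorem not_seven_dvd_centralizer (hG : Nat.card G = 2520) (y : G) (hy : orderOf y ≠ 1)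
    (hy7 : orderOf y ≠ 7) : ¬ 7 ∣ Nat.card (centralizer ({y} : Set G)) := by
  intro h
  have hp7 : Fact (Nat.Prime 7) := ⟨by norm_num⟩
  obtain ⟨x, hxC, hx7⟩ := exists_orderOf_mem _ 7 h
  have h1 := orderOf_of_comm7 hG x y hx7 (comm_of_mem_centralizer_singleton hxC)
  omega

theorem not_seven_dvd_normalizer (hG : Nat.card G = 2520) (X : Subgroup G)
    (hX : Nat.card X = 2 ∨ Nat.card X = 3 ∨ Nat.card X = 4 ∨ Nat.card X = 5 ∨ Nat.card X = 9) :
    ¬ 7 ∣ Nat.card (normalizer (X : Set G)) := by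
  intro h
  have hp7 : Fact (Nat.Prime 7) := ⟨by norm_num⟩
  obtain ⟨x, hxN, hx7⟩ := exists_orderOf_mem _ 7 h
  have hx7' : x ^ 7 = 1 := by rw [← hx7]; exact pow_orderOf_eq_one x
  have hXC : X ≤ centralizer ({x} : Set G) :=
    le_centralizer_of_normalizes 7 X x hxN hx7' (by
      intro d hd h7
      have hd9 : d ≤ 9 := by
        have := Nat.le_of_dvd (by omega) hd
        omega
      rcases hX with h | h | h | h | h <;> rw [h] at hd h7 ⊢ <;> interval_cases d <;> omega)
  have hXz : X ≤ zpowers x := by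
    intro g hg
    exact mem_zpowers_of_comm7 hG x g hx7 (comm_of_mem_centralizer_singleton (hXC hg)).symm
  have h1 := Subgroup.card_dvd_of_le hXz
  rw [Nat.card_zpowers, hx7] at h1
  have h2 := (Nat.dvd_prime (by norm_num : Nat.Prime 7)).mp h1
  omega

end Cfsg.Agent.Lib.Helper52.A7
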