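import Mathlib
import Cfsg.Agent.Lib.Helper52.A7.Syl7

/-!
Simple groups of order `2520` without a subgroup of index `7`: counting Sylow `5`- and
`3`-subgroups (first part).
-/

set_option autoImplicit false

namespace Cfsg.Agent.Lib.Helper52.A7

open Subgroup
open Cfsg.Agent.Lib.Helper17

variable {G : Type*} [Group G] [Finite G]

theorem exists_sylow_eq {p : ℕ} [Fact p.Prime] (P : Subgroup G) (a m : ℕ)
    (hP : Nat.card P = p ^ a) (hG : Nat.card G = p ^ a * m) (hm : ¬ p ∣ m) :
    ∃ P' : Sylow p G, (P' : Subgroup G) = P := by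
  have hpg : IsPGroup p P := IsPGroup.of_card hP
  obtain ⟨P', hP'⟩ := hpg.exists_le_sylow
  have h1 := card_sylow_eq_of_card_eq (G := G) p a m hG hm P'
  exact ⟨P', (Subgroup.eq_of_le_of_card_ge hP' (by rw [h1, hP])).symm⟩

theorem exists_subgroup_card_le (H : Subgroup G) (p n : ℕ) [Fact p.Prime]
    (hdvd : p ^ n ∣ Nat.card H) : ∃ K : Subgroup G, K ≤ H ∧ Nat.card K = p ^ n := by
  obtain ⟨K, hK⟩ := Sylow.exists_subgroup_card_pow_prime (G := H) p hdvd
  exact ⟨K.map H.subtype, map_subtype_le _,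
    by rw [card_map_of_injective H.subtype_injective, hK]⟩

omit [Finite G] in
theorem sylow_eq_of_le_normalizer {p : ℕ} [Fact p.Prime] (P Q : Sylow p G)
    (h : (Q : Subgroup G) ≤ normalizer ((P : Subgroup G) : Set G)) : Q = P := by
  have h1 : P ∈ MulAction.fixedPoints (Q : Subgroup G) (Sylow p G) :=
    (Subgroup.sylow_mem_fixedPoints_iff _).mpr h
  have h2 : (Q : Subgroup G) ≤ P := (Q.isPGroup'.sylow_mem_fixedPoints_iff).mp h1
  exact Sylow.ext (Q.is_maximal' P.isPGroup' h2).symm

theorem card_sylow5_sub (hG : Nat.card G = 2520) (Q : Sylow 5 G) :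
    Nat.card (Q : Subgroup G) = 5 := by
  have hp5 : Fact (Nat.Prime 5) := ⟨by norm_num⟩
  have := card_sylow_eq_of_card_eq (G := G) 5 1 504 (by rw [hG]; norm_num) (by norm_num) Q
  simpa using this

theorem card_sylow3_sub (hG : Nat.card G = 2520) (R : Sylow 3 G) :
    Nat.card (R : Subgroup G) = 9 := by
  have hp3 : Fact (Nat.Prime 3) := ⟨by norm_num⟩
  have := card_sylow_eq_of_card_eq (G := G) 3 2 280 (by rw [hG]; norm_num) (by norm_num) R
  simpa using this

theorem card_sylow2_sub (hG : Nat.card G = 2520) (S : Sylow 2 G) :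
    Nat.card (S : Subgroup G) = 8 := by
  have hp2 : Fact (Nat.Prime 2) := ⟨by norm_num⟩
  have := card_sylow_eq_of_card_eq (G := G) 2 3 315 (by rw [hG]; norm_num) (by norm_num) S
  simpa using this

theorem num5 (n : ℕ) (h1 : n ∣ 504) (h2 : n % 5 = 1) :
    n = 1 ∨ n = 6 ∨ n = 21 ∨ n = 36 ∨ n = 56 ∨ n = 126 := by
  have h3 : n ≤ 504 := Nat.le_of_dvd (by norm_num) h1
  have key : ∀ j < 101, (5 * j + 1) ∣ 504 →
      (j = 0 ∨ j = 1 ∨ j = 4 ∨ j = 7 ∨ j = 11 ∨ j = 25) := by
    decide
  have h4 : n = 5 * (n / 5) + 1 := by omega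
  have h5 := key (n / 5) (by omega) (by rw [← h4]; exact h1)
  omega

theorem num3 (n : ℕ) (h1 : n ∣ 280) (h2 : n % 3 = 1) :
    n = 1 ∨ n = 4 ∨ n = 7 ∨ n = 10 ∨ n = 28 ∨ n = 40 ∨ n = 70 ∨ n = 280 := by
  have h3 : n ≤ 280 := Nat.le_of_dvd (by norm_num) h1
  have key : ∀ j < 94, (3 * j + 1) ∣ 280 →
      (j = 0 ∨ j = 1 ∨ j = 2 ∨ j = 3 ∨ j = 9 ∨ j = 13 ∨ j = 23 ∨ j = 93) := by
    decide
  have h4 : n = 3 * (n / 3) + 1 := by omega
  have h5 := key (n / 3) (by omega) (by rw [← h4]; exact h1)
  omega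

theorem sylow3_comm (hG : Nat.card G = 2520) (R : Sylow 3 G) :
    ∀ a ∈ (R : Subgroup G), ∀ b ∈ (R : Subgroup G), a * b = b * a := by
  have hp3 : Fact (Nat.Prime 3) := ⟨by norm_num⟩
  have h9 := card_sylow3_sub hG R
  intro a ha b hb
  have h0 := IsPGroup.isMulCommutative_of_card_eq_prime_sq (p := 3) (G := (R : Subgroup G))
    (by rw [h9]; norm_num)
  have h1 := h0.is_comm.comm ⟨a, ha⟩ ⟨b, hb⟩
  exact congrArg Subtype.val h1

variable [IsSimpleGroup G]

theorem card_sylow5_cases (hG : Nat.card G = 2520) :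
    Nat.card (Sylow 5 G) = 21 ∨ Nat.card (Sylow 5 G) = 126 := by
  have hnp := not_prime_2520 hG
  have hp5 : Fact (Nat.Prime 5) := ⟨by norm_num⟩
  have h1 := num5 _ (card_sylow_dvd_of_card_eq (G := G) 5 1 504 (by rw [hG]; norm_num))
    (card_sylow_mod (G := G) 5)
  have h2 := card_sylow_ne_one (G := G) 5 (by rw [hG]; norm_num) 7 (by norm_num) (by norm_num)
    (by rw [hG]; norm_num)
  obtain ⟨Q⟩ : Nonempty (Sylow 5 G) := inferInstance
  have hQ := card_sylow5_sub hG Q
  have hN := card_sylow_mul_card_normalizer (G := G) 5 Q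
  rw [hG] at hN
  rcases h1 with h | h | h | h | h | h
  · exact absurd h h2
  · exfalso
    have h3 := card_dvd_factorial_card_sylow (G := G) 5 h2
    rw [h, hG] at h3
    revert h3
    decide
  · exact Or.inl h
  · exfalso
    rw [h] at hN
    exact not_seven_dvd_normalizer hG (Q : Subgroup G) (Or.inr (Or.inr (Or.inr (Or.inl hQ))))
      (by omega)
  · exfalso
    rw [h] at hN
    have hN45 : Nat.card (normalizer ((Q : Subgroup G) : Set G)) = 45 := by omega
    obtain ⟨hr4, hrC⟩ := relIndex_centralizer_of_card_prime (G := G) 5 (Q : Subgroup G) hQ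
    rw [hN45] at hrC
    have hC : Nat.card (centralizer ((Q : Subgroup G) : Set G)) = 45 := by
      generalize (centralizer ((Q : Subgroup G) : Set G)).relIndex
        (normalizer ((Q : Subgroup G) : Set G)) = r at hr4 hrC
      generalize Nat.card (centralizer ((Q : Subgroup G) : Set G)) = c at hrC ⊢
      have hr : r ≤ 4 := Nat.le_of_dvd (by norm_num) hr4
      interval_cases r <;> omega
    apply not_normalizer_le_centralizer hnp 5 (by rw [hG]; norm_num) Q
    have : centralizer ((Q : Subgroup G) : Set G) = normalizer ((Q : Subgroup G) : Set G) :=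
      Subgroup.eq_of_le_of_card_ge (Subgroup.centralizer_le_normalizer _) (by rw [hC, hN45])
    rw [← this]
  · exact Or.inr h

theorem card_sylow3 (hG : Nat.card G = 2520) (hno : ∀ H : Subgroup G, H.index ≠ 7) :
    Nat.card (Sylow 3 G) = 70 := by
  have hnp := not_prime_2520 hG
  have hp3 : Fact (Nat.Prime 3) := ⟨by norm_num⟩
  have hp5 : Fact (Nat.Prime 5) := ⟨by norm_num⟩
  have h1 := num3 _ (card_sylow_dvd_of_card_eq (G := G) 3 2 280 (by rw [hG]; norm_num))
    (card_sylow_mod (G := G) 3)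
  have h2 := card_sylow_ne_one (G := G) 3 (by rw [hG]; norm_num) 7 (by norm_num) (by norm_num)
    (by rw [hG]; norm_num)
  obtain ⟨R⟩ : Nonempty (Sylow 3 G) := inferInstance
  have hR := card_sylow3_sub hG R
  have hN := card_sylow_mul_card_normalizer (G := G) 3 R
  rw [hG] at hN
  rcases h1 with h | h | h | h | h | h | h | h
  · exact absurd h h2
  · exfalso
    have h3 := card_dvd_factorial_card_sylow (G := G) 3 h2
    rw [h, hG] at h3
    revert h3
    decide
  · exfalso
    apply hno (normalizer ((R : Subgroup G) : Set G))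
    have h7 := Sylow.card_eq_index_normalizer R
    rw [h] at h7
    exact h7.symm
  · exfalso
    rw [h] at hN
    exact not_seven_dvd_normalizer hG (R : Subgroup G)
      (Or.inr (Or.inr (Or.inr (Or.inr hR)))) (by omega)
  · exfalso
    rw [h] at hN
    have hN90 : Nat.card (normalizer ((R : Subgroup G) : Set G)) = 90 := by omega
    obtain ⟨y, hyN, hy5⟩ := exists_orderOf_mem (normalizer ((R : Subgroup G) : Set G)) 5
      (by rw [hN90]; norm_num)
    have hy5' : y ^ 5 = 1 := by rw [← hy5]; exact pow_orderOf_eq_one y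
    have hRC : (R : Subgroup G) ≤ centralizer ({y} : Set G) :=
      le_centralizer_of_normalizes 5 (R : Subgroup G) y hyN hy5' (by
        rw [hR]
        intro d hd h5
        have : d ≤ 9 := Nat.le_of_dvd (by norm_num) hd
        interval_cases d <;> omega)
    have hpg : IsPGroup 5 (zpowers y) :=
      IsPGroup.of_card (n := 1) (by rw [Nat.card_zpowers, hy5, pow_one])
    obtain ⟨Q, hQ⟩ := hpg.exists_le_sylow
    have hQ5 := card_sylow5_sub hG Q
    have hzQ : zpowers y = (Q : Subgroup G) :=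
      Subgroup.eq_of_le_of_card_ge hQ (by rw [hQ5, Nat.card_zpowers, hy5])
    have hRN : (R : Subgroup G) ≤ normalizer ((Q : Subgroup G) : Set G) := by
      intro r hr
      apply Subgroup.centralizer_le_normalizer
      rw [mem_centralizer_iff]
      intro g hg
      rw [← hzQ] at hg
      obtain ⟨n, rfl⟩ := mem_zpowers_iff.mp hg
      have hc : Commute y r := (comm_of_mem_centralizer_singleton (hRC hr)).symm
      exact (hc.zpow_left n).eq
    have h9 := Subgroup.card_dvd_of_le hRN
    rw [hR] at h9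
    have hN5 := card_sylow_mul_card_normalizer (G := G) 5 Q
    rw [hG] at hN5
    rcases card_sylow5_cases hG with h5 | h5 <;> rw [h5] at hN5 <;> omega
  · exfalso
    rw [h] at hN
    exact not_seven_dvd_normalizer hG (R : Subgroup G)
      (Or.inr (Or.inr (Or.inr (Or.inr hR)))) (by omega)
  · exact h
  · exfalso
    rw [h] at hN
    have hN9 : Nat.card (normalizer ((R : Subgroup G) : Set G)) = 9 := by omega
    apply not_normalizer_le_centralizer hnp 3 (by rw [hG]; norm_num) R
    have hRN : (R : Subgroup G) = normalizer ((R : Subgroup G) : Set G) :=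
      Subgroup.eq_of_le_of_card_ge le_normalizer (by rw [hN9, hR])
    rw [← hRN]
    intro a ha
    rw [mem_centralizer_iff]
    intro b hb
    exact sylow3_comm hG R b hb a ha

theorem card_normalizer3 (hG : Nat.card G = 2520) (hno : ∀ H : Subgroup G, H.index ≠ 7)
    (R : Sylow 3 G) : Nat.card (normalizer ((R : Subgroup G) : Set G)) = 36 := by
  have hp3 : Fact (Nat.Prime 3) := ⟨by norm_num⟩
  have hN := card_sylow_mul_card_normalizer (G := G) 3 R
  rw [card_sylow3 hG hno, hG] at hN
  omega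

end Cfsg.Agent.Lib.Helper52.A7
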