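import Mathlib
import Cfsg.Agent.Lib.Helper52.A7.Syl5

/-!
Simple groups of order `2520` without a subgroup of index `7`: there are `126` Sylow
`5`-subgroups.
-/

set_option autoImplicit false

namespace Cfsg.Agent.Lib.Helper52.A7

open Subgroup
open Cfsg.Agent.Lib.Helper17

variable {G : Type*} [Group G]

theorem centralizer_le_normalizer_zpowers (z : G) :
    centralizer ({z} : Set G) ≤ normalizer ((zpowers z : Subgroup G) : Set G) := by
  intro x hx
  apply Subgroup.centralizer_le_normalizer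
  rw [mem_centralizer_iff]
  intro h hh
  obtain ⟨n, rfl⟩ := mem_zpowers_iff.mp hh
  have hc : Commute z x := (comm_of_mem_centralizer_singleton hx).symm
  exact (hc.zpow_left n).eq

theorem mem_normalizer_zpowers_of_conj_mem {p : ℕ} (hp : p.Prime) (z g : G)
    (hz : orderOf z = p) (h : g * z * g⁻¹ ∈ zpowers z) :
    g ∈ normalizer ((zpowers z : Subgroup G) : Set G) := by
  have hz1 : z ≠ 1 := by
    intro h1; rw [h1, orderOf_one] at hz; exact hp.one_lt.ne hz
  have hne : g * z * g⁻¹ ≠ 1 := by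
    intro h1
    apply hz1
    have : z = g⁻¹ * (g * z * g⁻¹) * g := by group
    rw [this, h1]; group
  have hcard : Nat.card (zpowers z) = p := by rw [Nat.card_zpowers, hz]
  have e : zpowers (g * z * g⁻¹) = zpowers z :=
    zpowers_eq_of_mem_of_card_prime hp (zpowers z) hcard _ h hne
  rw [mem_normalizer_iff]
  intro x
  constructor
  · intro hx
    obtain ⟨n, rfl⟩ := mem_zpowers_iff.mp hx
    rw [← conj_zpow]
    exact (zpowers z).zpow_mem h n
  · intro hx
    rw [← e] at hx
    obtain ⟨n, hn⟩ := mem_zpowers_iff.mp hx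
    rw [conj_zpow] at hn
    have : x = z ^ n := by
      have h2 : g⁻¹ * (g * z ^ n * g⁻¹) * g = g⁻¹ * (g * x * g⁻¹) * g := by rw [hn]
      have e1 : g⁻¹ * (g * z ^ n * g⁻¹) * g = z ^ n := by group
      have e2 : g⁻¹ * (g * x * g⁻¹) * g = x := by group
      rw [e1, e2] at h2
      exact h2.symm
    rw [this]
    exact zpow_mem (mem_zpowers z) n

theorem conj_mem_of_relIndex_two {A N : Subgroup G} (hAN : A ≤ N) (h : A.relIndex N = 2)
    {g s : G} (hg : g ∈ N) (hgA : g ∉ A) (hs : s ∈ A) : g⁻¹ * s * g ∈ A := by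
  have hidx : (A.subgroupOf N).index = 2 := h
  have key := Subgroup.mul_mem_iff_of_index_two hidx (a := (⟨g⁻¹, N.inv_mem hg⟩ : N))
    (b := (⟨s * g, N.mul_mem (hAN hs) hg⟩ : N))
  have ha : (⟨g⁻¹, N.inv_mem hg⟩ : N) ∉ A.subgroupOf N := by
    rw [mem_subgroupOf]
    intro h1
    exact hgA (by simpa using A.inv_mem h1)
  have hb : (⟨s * g, N.mul_mem (hAN hs) hg⟩ : N) ∉ A.subgroupOf N := by
    rw [mem_subgroupOf]
    intro h1
    apply hgA
    have h2 := A.mul_mem (A.inv_mem hs) h1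
    simpa using h2
  have h3 := key.mpr ⟨fun h => absurd h ha, fun h => absurd h hb⟩
  rw [mem_subgroupOf] at h3
  simpa [mul_assoc] using h3

theorem num_n5 (n A : ℕ) (hA120 : A ∣ 120) (h3 : 3 ∣ A) (h5 : 5 ∣ A) (hn : n % 5 = 1)
    (hn1 : n ≠ 1) (hd : n * A ∣ 360) (hne : n * A ≠ 360) : n = 6 ∧ (A = 15 ∨ A = 30) := by
  have hA : A ≤ 120 := Nat.le_of_dvd (by norm_num) hA120
  have key1 : ∀ A < 121, (A ∣ 120 ∧ 3 ∣ A ∧ 5 ∣ A) →
      A = 15 ∨ A = 30 ∨ A = 60 ∨ A = 120 := by
    decide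
  have hle : n * A ≤ 360 := Nat.le_of_dvd (by norm_num) hd
  have key2 : ∀ n < 25, (n % 5 = 1 ∧ n ≠ 1) →
      ((n * 15 ∣ 360 ∧ n * 15 ≠ 360) → n = 6) ∧ ((n * 30 ∣ 360 ∧ n * 30 ≠ 360) → n = 6) ∧
      ((n * 60 ∣ 360 ∧ n * 60 ≠ 360) → False) ∧ ((n * 120 ∣ 360 ∧ n * 120 ≠ 360) → False) := by
    decide
  rcases key1 A (by omega) ⟨hA120, h3, h5⟩ with h | h | h | h
  · subst h
    exact ⟨(key2 n (by omega) ⟨hn, hn1⟩).1 ⟨hd, hne⟩, Or.inl rfl⟩
  · subst h
    exact ⟨(key2 n (by omega) ⟨hn, hn1⟩).2.1 ⟨hd, hne⟩, Or.inr rfl⟩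
  · subst h
    exact absurd ((key2 n (by omega) ⟨hn, hn1⟩).2.2.1 ⟨hd, hne⟩) id
  · subst h
    exact absurd ((key2 n (by omega) ⟨hn, hn1⟩).2.2.2 ⟨hd, hne⟩) id

variable [Finite G] [IsSimpleGroup G]

/-- If `|C(z)| = 180` for an element `z` of order `3`, then `z` is not conjugate to `z⁻¹`. -/
theorem not_conj_mem_zpowers (hG : Nat.card G = 2520) (hno : ∀ H : Subgroup G, H.index ≠ 7)
    (z g : G) (hz : orderOf z = 3) (hX : 180 ≤ Nat.card (centralizer ({z} : Set G)))
    (hg : g ∉ centralizer ({z} : Set G)) : g * z * g⁻¹ ∉ zpowers z := by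
  intro hmem
  have hgM := mem_normalizer_zpowers_of_conj_mem (by norm_num : Nat.Prime 3) z g hz hmem
  set M := normalizer ((zpowers z : Subgroup G) : Set G) with hM
  have hXM : centralizer ({z} : Set G) ≤ M := centralizer_le_normalizer_zpowers z
  have hMtop : M ≠ ⊤ := by
    intro h
    have hn : (zpowers z).Normal := normalizer_eq_top_iff.mp h
    rcases hn.eq_bot_or_eq_top with h1 | h1
    · have : Nat.card (zpowers z) = 1 := by rw [h1, Subgroup.card_bot]
      rw [Nat.card_zpowers, hz] at this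
      omega
    · have : Nat.card (zpowers z) = Nat.card G := by rw [h1, Subgroup.card_top]
      rw [Nat.card_zpowers, hz, hG] at this
      omega
  have h315 := card_le_of_ne_top hG hno M hMtop
  have hdvd := Subgroup.card_dvd_of_le hXM
  have hne : Nat.card (centralizer ({z} : Set G)) ≠ Nat.card M := by
    intro h
    have : centralizer ({z} : Set G) = M := Subgroup.eq_of_le_of_card_ge hXM (by rw [h])
    exact hg (this ▸ hgM)
  obtain ⟨k, hk⟩ := hdvd
  have hk2 : 2 ≤ k := by
    rcases Nat.lt_or_ge k 2 with h | h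
    · interval_cases k
      · rw [mul_zero] at hk; rw [hk] at hne
        have : 0 < Nat.card M := Nat.card_pos
        omega
      · rw [mul_one] at hk; exact absurd hk.symm hne
    · exact h
  have : 2 * 180 ≤ Nat.card (centralizer ({z} : Set G)) * k := by
    rw [mul_comm]; exact Nat.mul_le_mul hX hk2
  omega

theorem card_sylow5 (hG : Nat.card G = 2520) (hno : ∀ H : Subgroup G, H.index ≠ 7) :
    Nat.card (Sylow 5 G) = 126 := by
  rcases card_sylow5_cases hG with h21 | h
  swap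
  · exact h
  exfalso
  have hnp := not_prime_2520 hG
  have hp5 : Fact (Nat.Prime 5) := ⟨by norm_num⟩
  have hp3 : Fact (Nat.Prime 3) := ⟨by norm_num⟩
  obtain ⟨Q⟩ : Nonempty (Sylow 5 G) := inferInstance
  have hQ := card_sylow5_sub hG Q
  have hN := card_sylow_mul_card_normalizer (G := G) 5 Q
  rw [h21, hG] at hN
  have hN120 : Nat.card (normalizer ((Q : Subgroup G) : Set G)) = 120 := by omega
  obtain ⟨hr4, hrC⟩ := relIndex_centralizer_of_card_prime (G := G) 5 (Q : Subgroup G) hQ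
  rw [hN120] at hrC
  have h3C : 3 ∣ Nat.card (centralizer ((Q : Subgroup G) : Set G)) := by
    generalize (centralizer ((Q : Subgroup G) : Set G)).relIndex
      (normalizer ((Q : Subgroup G) : Set G)) = r at hr4 hrC
    generalize Nat.card (centralizer ((Q : Subgroup G) : Set G)) = c at hrC ⊢
    have hr : r ≤ 4 := Nat.le_of_dvd (by norm_num) hr4
    interval_cases r <;> omega
  obtain ⟨z, hzC, hz3⟩ := exists_orderOf_mem _ 3 h3C
  have hz3' : z ^ 3 = 1 := by rw [← hz3]; exact pow_orderOf_eq_one z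
  have hz1 : z ≠ 1 := by
    intro h; rw [h, orderOf_one] at hz3; omega
  have hzN : z ∈ normalizer ((Q : Subgroup G) : Set G) :=
    Subgroup.centralizer_le_normalizer _ hzC
  have h1 := fix_sylow_mod Q z hzC
  have h2 := fix_mod_prime (X := Sylow 5 G) 3 z hz3'
  have h3 : Set.ncard {Q' : Sylow 5 G | z • Q' = Q'} ≤ Nat.card (Sylow 5 G) :=
    Set.ncard_le_card _
  rw [h21] at h2 h3
  have h4 : Set.ncard {Q' : Sylow 5 G | z • Q' = Q'} = 6 := by
    have h5 : Set.ncard {Q' : Sylow 5 G | z • Q' = Q'} = 6 ∨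
        Set.ncard {Q' : Sylow 5 G | z • Q' = Q'} = 21 := by
      unfold Nat.ModEq at h2; omega
    rcases h5 with h | h
    · exact h
    · exact absurd (eq_one_of_fix_all (by rw [h21]; norm_num) z
        (fix_all_of_ncard z (by rw [h, h21]))) hz1
  obtain ⟨Q', hQ'F, hQ'Q⟩ : ∃ Q' : Sylow 5 G, z • Q' = Q' ∧ Q' ≠ Q := by
    by_contra hcon
    have hsub : {Q' : Sylow 5 G | z • Q' = Q'} ⊆ {Q} := by
      intro Q' hQ'
      by_contra hne
      exact hcon ⟨Q', hQ', hne⟩
    have h5 := Set.ncard_le_ncard hsub (Set.finite_singleton Q)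
    rw [Set.ncard_singleton, h4] at h5
    omega
  set X := centralizer ({z} : Set G) with hX
  have hzX : z ∈ X := mem_centralizer_singleton_of_comm rfl
  have hQX : (Q : Subgroup G) ≤ X := by
    intro g hg
    apply mem_centralizer_singleton_of_comm
    exact mem_centralizer_iff.mp hzC g hg
  have hQ'X : (Q' : Subgroup G) ≤ X :=
    le_centralizer_of_normalizes 3 (Q' : Subgroup G) z
      (Sylow.smul_eq_iff_mem_normalizer.mp hQ'F) hz3' (by
        rw [card_sylow5_sub hG Q']
        intro d hd h3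
        have : d ≤ 5 := Nat.le_of_dvd (by norm_num) hd
        interval_cases d <;> omega)
  have hX7 : ¬ 7 ∣ Nat.card X :=
    not_seven_dvd_centralizer hG z (by rw [hz3]; norm_num) (by rw [hz3]; norm_num)
  have hXd : Nat.card X ∣ 2520 := card_dvd_2520 hG X
  have hX360 : Nat.card X ≠ 360 := by
    intro h
    apply hno X
    have h5 := X.card_mul_index
    rw [h, hG] at h5
    omega
  have hXd360 : Nat.card X ∣ 360 := by
    have hc : Nat.Coprime (Nat.card X) 7 :=
      Nat.Coprime.symm ((Nat.Prime.coprime_iff_not_dvd (by norm_num)).mpr hX7)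
    exact hc.dvd_of_dvd_mul_left (by norm_num; exact hXd)
  have h5X : 5 ∣ Nat.card X := by
    have h5 := Subgroup.card_dvd_of_le hQX
    rwa [hQ] at h5
  obtain ⟨m, hm⟩ := h5X
  have hm5 : ¬ 5 ∣ m := by
    rintro ⟨k, rfl⟩
    rw [hm] at hXd
    have : 25 ∣ 2520 := Dvd.dvd.trans ⟨k, by ring⟩ hXd
    omega
  obtain ⟨n, hn5, hnA⟩ := sylow_sub_count X (Q : Subgroup G) hQX 1 m (by rw [hQ]; norm_num)
    (by rw [hm]; norm_num) hm5
  have hA5 : 5 ∣ Nat.card (X ⊓ normalizer ((Q : Subgroup G) : Set G) : Subgroup G) := by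
    have h5 := Subgroup.card_dvd_of_le
      (le_inf hQX le_normalizer : (Q : Subgroup G) ≤ X ⊓ normalizer ((Q : Subgroup G) : Set G))
    rwa [hQ] at h5
  have hA3 : 3 ∣ Nat.card (X ⊓ normalizer ((Q : Subgroup G) : Set G) : Subgroup G) := by
    have h5 := Subgroup.card_dvd_of_le
      (show zpowers z ≤ X ⊓ normalizer ((Q : Subgroup G) : Set G) from by
        rw [zpowers_le]; exact ⟨hzX, hzN⟩)
    rwa [Nat.card_zpowers, hz3] at h5
  have hA120 : Nat.card (X ⊓ normalizer ((Q : Subgroup G) : Set G) : Subgroup G) ∣ 120 := by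
    rw [← hN120]; exact Subgroup.card_dvd_of_le inf_le_right
  have hn1 : n ≠ 1 := by
    intro h
    rw [h, one_mul] at hnA
    have hXN : X ≤ normalizer ((Q : Subgroup G) : Set G) := by
      have h5 : X ⊓ normalizer ((Q : Subgroup G) : Set G) = X :=
        Subgroup.eq_of_le_of_card_ge inf_le_left (by rw [hnA])
      rw [← h5]; exact inf_le_right
    exact hQ'Q (sylow_eq_of_le_normalizer Q Q' (hQ'X.trans hXN))
  have hnum := num_n5 n _ hA120 hA3 hA5 hn5 hn1 (by rw [hnA]; exact hXd360)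
    (by rw [hnA]; exact hX360)
  have hXc : Nat.card X = 90 ∨ Nat.card X = 180 := by
    obtain ⟨h6, hA⟩ := hnum
    rw [h6] at hnA
    rcases hA with hA | hA <;> rw [hA] at hnA <;> omega
  obtain ⟨R1, hR1X, hR19⟩ := exists_subgroup_card_le X 3 2 (by
    rcases hXc with h | h <;> rw [h] <;> norm_num)
  obtain ⟨R1', hR1'⟩ := exists_sylow_eq R1 2 280 hR19 (by rw [hG]; norm_num) (by norm_num)
  have hNR36 : Nat.card (normalizer (R1 : Set G)) = 36 := by
    rw [← hR1']; exact card_normalizer3 hG hno R1'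
  have hcomm : ∀ a ∈ R1, ∀ b ∈ R1, a * b = b * a := by
    rw [← hR1']; exact sylow3_comm hG R1'
  have hR19' : Nat.card R1 = 9 := by rw [hR19]; norm_num
  obtain ⟨m', hXm, hm3, hm'⟩ : ∃ m', Nat.card X = 3 ^ 2 * m' ∧ ¬ 3 ∣ m' ∧ (m' = 10 ∨ m' = 20) := by
    rcases hXc with h | h
    · exact ⟨10, by rw [h]; norm_num, by norm_num, Or.inl rfl⟩
    · exact ⟨20, by rw [h]; norm_num, by norm_num, Or.inr rfl⟩
  have hzR1 : z ∈ R1 := by
    obtain ⟨h, hhX, hh⟩ := sylow_sub_conj X R1 hR1X 2 m' hR19 hXm hm3 (zpowers z)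
      (zpowers_le.mpr hzX) (IsPGroup.of_card (n := 1) (by rw [Nat.card_zpowers, hz3, pow_one]))
    have h5 := hh z (mem_zpowers z)
    have e : h * z * h⁻¹ = z := by
      rw [comm_of_mem_centralizer_singleton hhX, mul_inv_cancel_right]
    rwa [e] at h5
  obtain ⟨n3, hn3, hn3B⟩ := sylow_sub_count X R1 hR1X 2 m' hR19 hXm hm3
  have hB9 : 9 ∣ Nat.card (X ⊓ normalizer (R1 : Set G) : Subgroup G) := by
    have h5 := Subgroup.card_dvd_of_le
      (le_inf hR1X le_normalizer : R1 ≤ X ⊓ normalizer (R1 : Set G))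
    rwa [hR19'] at h5
  have hB36 : Nat.card (X ⊓ normalizer (R1 : Set G) : Subgroup G) ∣ 36 := by
    rw [← hNR36]; exact Subgroup.card_dvd_of_le inf_le_right
  have hB : (Nat.card X = 90 ∧ Nat.card (X ⊓ normalizer (R1 : Set G) : Subgroup G) = 9) ∨
      (Nat.card X = 180 ∧ Nat.card (X ⊓ normalizer (R1 : Set G) : Subgroup G) = 18) := by
    have key : ∀ B < 37, B ∣ 36 → 9 ∣ B → B = 9 ∨ B = 18 ∨ B = 36 := by decide
    have hB' := key _ (by have := Nat.le_of_dvd (by norm_num) hB36; omega) hB36 hB9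
    generalize Nat.card (X ⊓ normalizer (R1 : Set G) : Subgroup G) = B at hn3B hB' ⊢
    rcases hXc with h | h <;> rw [h] at hn3B <;> rcases hB' with h' | h' | h' <;>
      rw [h'] at hn3B <;> omega
  have hNC : X ⊓ normalizer (R1 : Set G) ≤ centralizer (R1 : Set G) := by
    rcases hB with ⟨hX90, hB9'⟩ | ⟨hX180, hB18⟩
    · have e : R1 = X ⊓ normalizer (R1 : Set G) :=
        Subgroup.eq_of_le_of_card_ge (le_inf hR1X le_normalizer) (by rw [hB9', hR19'])
      rw [← e]
      intro a ha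
      rw [mem_centralizer_iff]
      intro b hb
      exact hcomm b hb a ha
    · intro s hs
      obtain ⟨g, hgN, hgX⟩ : ∃ g ∈ normalizer (R1 : Set G), g ∉ X := by
        by_contra hcon
        have hNX : normalizer (R1 : Set G) ≤ X := by
          intro g hg
          by_contra h
          exact hcon ⟨g, hg, h⟩
        have h5 : normalizer (R1 : Set G) ≤ X ⊓ normalizer (R1 : Set G) := le_inf hNX le_rfl
        have h6 := Subgroup.card_le_of_le h5
        rw [hNR36, hB18] at h6
        omega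
      have hgA2 : g ∉ X ⊓ normalizer (R1 : Set G) := fun h => hgX h.1
      have hrel : (X ⊓ normalizer (R1 : Set G)).relIndex (normalizer (R1 : Set G)) = 2 := by
        have h5 := Cfsg.Agent.Lib.Helper52.PG7920.relIndex_mul_card_of_le
          (inf_le_right : X ⊓ normalizer (R1 : Set G) ≤ normalizer (R1 : Set G))
        rw [hNR36, hB18] at h5
        omega
      have hconj := conj_mem_of_relIndex_two inf_le_right hrel hgN hgA2 hs
      have hz' : s * (g * z * g⁻¹) = (g * z * g⁻¹) * s := by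
        have h1 : (g⁻¹ * s * g) * z = z * (g⁻¹ * s * g) :=
          comm_of_mem_centralizer_singleton hconj.1
        calc s * (g * z * g⁻¹) = g * ((g⁻¹ * s * g) * z) * g⁻¹ := by group
          _ = g * (z * (g⁻¹ * s * g)) * g⁻¹ := by rw [h1]
          _ = g * z * g⁻¹ * s := by group
      have hz'R : g * z * g⁻¹ ∈ R1 := (mem_normalizer_iff.mp hgN z).mp hzR1
      have hz'ne : g * z * g⁻¹ ∉ zpowers z :=
        not_conj_mem_zpowers hG hno z g hz3 (by rw [← hX, hX180]) hgX
      have hzD : z ∈ R1 ⊓ centralizer ({s} : Set G) :=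
        ⟨hzR1, mem_centralizer_singleton_of_comm (comm_of_mem_centralizer_singleton hs.1).symm⟩
      have hz'D : g * z * g⁻¹ ∈ R1 ⊓ centralizer ({s} : Set G) :=
        ⟨hz'R, mem_centralizer_singleton_of_comm hz'.symm⟩
      have hD9 : Nat.card (R1 ⊓ centralizer ({s} : Set G) : Subgroup G) = 9 := by
        have h1 : Nat.card (R1 ⊓ centralizer ({s} : Set G) : Subgroup G) ∣ 9 := by
          have h5 := Subgroup.card_dvd_of_le
            (inf_le_left : R1 ⊓ centralizer ({s} : Set G) ≤ R1)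
          rwa [hR19'] at h5
        have h2 : zpowers z ≤ R1 ⊓ centralizer ({s} : Set G) := zpowers_le.mpr hzD
        have h3 : Nat.card (R1 ⊓ centralizer ({s} : Set G) : Subgroup G) ≠ 3 := by
          intro h
          have h5 : zpowers z = R1 ⊓ centralizer ({s} : Set G) :=
            Subgroup.eq_of_le_of_card_ge h2 (by rw [h, Nat.card_zpowers, hz3])
          exact hz'ne (h5 ▸ hz'D)
        have h4 : 3 ∣ Nat.card (R1 ⊓ centralizer ({s} : Set G) : Subgroup G) := by
          have h5 := Subgroup.card_dvd_of_le h2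
          rwa [Nat.card_zpowers, hz3] at h5
        generalize Nat.card (R1 ⊓ centralizer ({s} : Set G) : Subgroup G) = d at h1 h3 h4 ⊢
        have : d ≤ 9 := Nat.le_of_dvd (by norm_num) h1
        interval_cases d <;> omega
      have hDR : R1 ⊓ centralizer ({s} : Set G) = R1 :=
        Subgroup.eq_of_le_of_card_ge inf_le_left (by rw [hD9, hR19'])
      rw [mem_centralizer_iff]
      intro r hr
      have h5 : r ∈ R1 ⊓ centralizer ({s} : Set G) := by rw [hDR]; exact hr
      exact comm_of_mem_centralizer_singleton h5.2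
  obtain ⟨K, hKX, hXK, hKm, hKall⟩ := burnside_sub X R1 hR1X 2 m' hR19 hXm hm3 hNC
  have hcop : ∀ (Q0 : Sylow 5 G), ∀ x ∈ (Q0 : Subgroup G), (orderOf x).Coprime 3 := by
    intro Q0 x hx
    have h1 : orderOf (⟨x, hx⟩ : (Q0 : Subgroup G)) ∣ Nat.card (Q0 : Subgroup G) :=
      orderOf_dvd_natCard _
    rw [card_sylow5_sub hG Q0, ← Subgroup.orderOf_coe] at h1
    simp only at h1
    rcases (Nat.dvd_prime (by norm_num)).mp h1 with h | h <;> rw [h] <;> norm_num
  have hQK : (Q : Subgroup G) ≤ K := fun x hx => hKall x (hQX hx) (hcop Q x hx)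
  have hQ'K : (Q' : Subgroup G) ≤ K := fun x hx => hKall x (hQ'X hx) (hcop Q' x hx)
  obtain ⟨m5, hKm5, hm55, hm5c⟩ : ∃ m5, Nat.card K = 5 ^ 1 * m5 ∧ ¬ 5 ∣ m5 ∧
      (m5 = 2 ∨ m5 = 4) := by
    rcases hm' with h | h
    · exact ⟨2, by rw [hKm, h]; norm_num, by norm_num, Or.inl rfl⟩
    · exact ⟨4, by rw [hKm, h]; norm_num, by norm_num, Or.inr rfl⟩
  obtain ⟨n', hn'5, hn'A⟩ := sylow_sub_count (p := 5) K (Q : Subgroup G) hQK 1 m5
    (by rw [hQ]; norm_num) hKm5 hm55
  have hn'1 : n' = 1 := by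
    have hd : n' ∣ Nat.card K := Dvd.intro _ hn'A
    rw [hKm5] at hd
    rcases hm5c with h | h
    · rw [h] at hd
      have hle : n' ≤ 10 := Nat.le_of_dvd (by norm_num) hd
      interval_cases n' <;> omega
    · rw [h] at hd
      have hle : n' ≤ 20 := Nat.le_of_dvd (by norm_num) hd
      interval_cases n' <;> omega
  rw [hn'1, one_mul] at hn'A
  have hKN : K ≤ normalizer ((Q : Subgroup G) : Set G) := by
    have h5 : K ⊓ normalizer ((Q : Subgroup G) : Set G) = K :=
      Subgroup.eq_of_le_of_card_ge inf_le_left (by rw [hn'A])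
    rw [← h5]; exact inf_le_right
  exact hQ'Q (sylow_eq_of_le_normalizer Q Q' (hQ'K.trans hKN))

theorem card_normalizer5 (hG : Nat.card G = 2520) (hno : ∀ H : Subgroup G, H.index ≠ 7)
    (Q : Sylow 5 G) : Nat.card (normalizer ((Q : Subgroup G) : Set G)) = 20 := by
  have hp5 : Fact (Nat.Prime 5) := ⟨by norm_num⟩
  have hN := card_sylow_mul_card_normalizer (G := G) 5 Q
  rw [card_sylow5 hG hno, hG] at hN
  omega

end Cfsg.Agent.Lib.Helper52.A7
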