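import Mathlib
import Cfsg.Agent.S0111
import Cfsg.Agent.S0215
import Cfsg.Agent.Lib.Helper52.CyclicAux
import Cfsg.Agent.Lib.Helper52.A7.Syl5b

/-!
Simple groups of order `2520` without a subgroup of index `7`: the Sylow `5`-subgroups are
self-centralizing, there are elements of order `4`, and all involutions are conjugate
(Thompson's transfer lemma).
-/

set_option autoImplicit false

namespace Cfsg.Agent.Lib.Helper52.A7

open Subgroup
open Cfsg.Agent.Lib.Helper17
open Cfsg.Agent.Lib.Helper52.PG7920

variable {G : Type*} [Group G]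

theorem inv_mem_zpowers_four (u x : G) (hu : orderOf u = 4) (hx : x ∈ zpowers u)
    (hx2 : orderOf x = 2) : x = u ^ 2 := by
  obtain ⟨k, rfl⟩ := mem_zpowers_iff.mp hx
  have h1 : u ^ k = u ^ (k % 4) := by
    have h := zpow_mod_orderOf u k
    rw [hu] at h
    exact h.symm
  have h4 : u ^ 4 = 1 := by rw [← hu]; exact pow_orderOf_eq_one u
  have hk : k % 4 = 0 ∨ k % 4 = 1 ∨ k % 4 = 2 ∨ k % 4 = 3 := by omega
  rw [h1] at hx2 ⊢
  rcases hk with h | h | h | h <;> rw [h] at hx2 ⊢
  · rw [zpow_zero, orderOf_one] at hx2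
    omega
  · rw [zpow_one, hu] at hx2
    omega
  · exact zpow_ofNat u 2
  · have h3 : u ^ (3 : ℤ) = u⁻¹ := by
      rw [eq_inv_iff_mul_eq_one]
      have e : u ^ (3 : ℤ) * u = u ^ 4 := by
        rw [zpow_ofNat]; group
      rw [e, h4]
    rw [h3, orderOf_inv, hu] at hx2
    omega

theorem orderOf_sq_of_four (u : G) (hu : orderOf u = 4) : orderOf (u ^ 2) = 2 := by
  rw [orderOf_pow' u (by norm_num), hu]
  rfl

theorem card_centralizer_conj (g x : G) :
    Nat.card (centralizer ({g * x * g⁻¹} : Set G)) = Nat.card (centralizer ({x} : Set G)) := by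
  apply Nat.card_congr
  refine ⟨fun c => ⟨g⁻¹ * c.1 * g, ?_⟩, fun c => ⟨g * c.1 * g⁻¹, ?_⟩, ?_, ?_⟩
  · apply mem_centralizer_singleton_of_comm
    have h := comm_of_mem_centralizer_singleton c.2
    calc g⁻¹ * c.1 * g * x = g⁻¹ * (c.1 * (g * x * g⁻¹)) * g := by group
      _ = g⁻¹ * (g * x * g⁻¹ * c.1) * g := by rw [h]
      _ = x * (g⁻¹ * c.1 * g) := by group
  · apply mem_centralizer_singleton_of_comm
    have h := comm_of_mem_centralizer_singleton c.2
    calc g * c.1 * g⁻¹ * (g * x * g⁻¹) = g * (c.1 * x) * g⁻¹ := by group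
      _ = g * (x * c.1) * g⁻¹ := by rw [h]
      _ = g * x * g⁻¹ * (g * c.1 * g⁻¹) := by group
  · intro c
    apply Subtype.ext
    show g * (g⁻¹ * c.1 * g) * g⁻¹ = c.1
    group
  · intro c
    apply Subtype.ext
    show g⁻¹ * (g * c.1 * g⁻¹) * g = c.1
    group

theorem exists_order_four_of_sq_ne_one [Finite G] (S : Subgroup G) (hS : Nat.card S = 8) (a : G)
    (ha : a ∈ S) (ha2 : a ^ 2 ≠ 1) : ∃ u : G, orderOf u = 4 := by
  have h1 : orderOf (⟨a, ha⟩ : S) ∣ Nat.card S := orderOf_dvd_natCard _
  rw [hS, ← Subgroup.orderOf_coe] at h1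
  simp only at h1
  have h2 : orderOf a ≠ 1 := by
    intro h
    rw [orderOf_eq_one_iff] at h
    rw [h, one_pow] at ha2
    exact ha2 rfl
  have h3 : orderOf a ≠ 2 := by
    intro h
    apply ha2
    rw [← h]; exact pow_orderOf_eq_one a
  have h4 : orderOf a = 4 ∨ orderOf a = 8 := by
    have hle : orderOf a ≤ 8 := Nat.le_of_dvd (by norm_num) h1
    interval_cases (orderOf a) <;> omega
  rcases h4 with h | h
  · exact ⟨a, h⟩
  · refine ⟨a ^ 2, ?_⟩
    rw [orderOf_pow' a (by norm_num), h]
    rfl

variable [Finite G] [IsSimpleGroup G]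

/-- Thompson's transfer lemma: every involution is conjugate to `u ^ 2`, for `u` of order `4`. -/
theorem thompson_conj (hG : Nat.card G = 2520) (u : G) (hu : orderOf u = 4) (z : G)
    (hz : orderOf z = 2) : ∃ g, g * z * g⁻¹ = u ^ 2 := by
  have hp2 : Fact (Nat.Prime 2) := ⟨Nat.prime_two⟩
  have hpg : IsPGroup 2 (zpowers u) :=
    IsPGroup.of_card (n := 2) (by rw [Nat.card_zpowers, hu]; norm_num)
  obtain ⟨S, hS⟩ := hpg.exists_le_sylow
  have hS8 := card_sylow2_sub hG S
  have hrel : (zpowers u).relIndex (S : Subgroup G) = 2 := by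
    have h := relIndex_mul_card_of_le hS
    rw [hS8, Nat.card_zpowers, hu] at h
    omega
  obtain ⟨g0, hg0⟩ := exists_conj_mem_sylow_of_orderOf_pow S z 1 (by rw [hz]; norm_num)
  have hz'2 : orderOf (g0 * z * g0⁻¹) = 2 := by rw [orderOf_conj_eq, hz]
  by_cases hz'T : g0 * z * g0⁻¹ ∈ zpowers u
  · exact ⟨g0, inv_mem_zpowers_four u _ hu hz'T hz'2⟩
  · rcases Cfsg.Agent.S0111.result S (zpowers u) hS hrel (g0 * z * g0⁻¹) hz'2 hg0 hz'T with
      ⟨M, hMn, hMi, -⟩ | ⟨g, hg⟩
    · exfalso
      rcases hMn.eq_bot_or_eq_top with h | h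
      · rw [h, Subgroup.index_bot, hG] at hMi
        omega
      · rw [h, Subgroup.index_top] at hMi
        omega
    · refine ⟨g * g0, ?_⟩
      have h2 : orderOf (g * (g0 * z * g0⁻¹) * g⁻¹) = 2 := by rw [orderOf_conj_eq, hz'2]
      have h3 := inv_mem_zpowers_four u _ hu hg h2
      rw [← h3]
      group

omit [IsSimpleGroup G] in
theorem eight_dvd_centralizer_sq (hG : Nat.card G = 2520) (u : G) (hu : orderOf u = 4) :
    8 ∣ Nat.card (centralizer ({u ^ 2} : Set G)) := by
  have hp2 : Fact (Nat.Prime 2) := ⟨Nat.prime_two⟩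
  have hpg : IsPGroup 2 (zpowers u) :=
    IsPGroup.of_card (n := 2) (by rw [Nat.card_zpowers, hu]; norm_num)
  obtain ⟨S, hS⟩ := hpg.exists_le_sylow
  have hS8 := card_sylow2_sub hG S
  have hrel : (zpowers u).relIndex (S : Subgroup G) = 2 := by
    have h := relIndex_mul_card_of_le hS
    rw [hS8, Nat.card_zpowers, hu] at h
    omega
  have hnorm : ∀ g ∈ (S : Subgroup G), g * u * g⁻¹ ∈ zpowers u := by
    intro g hg
    have hidx : ((zpowers u).subgroupOf (S : Subgroup G)).index = 2 := hrel
    have hn := Subgroup.normal_of_index_eq_two hidx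
    have h1 := hn.conj_mem (⟨u, hS (mem_zpowers u)⟩ : (S : Subgroup G))
      (mem_subgroupOf.mpr (mem_zpowers u)) ⟨g, hg⟩
    rw [mem_subgroupOf] at h1
    exact h1
  have hSC : (S : Subgroup G) ≤ centralizer ({u ^ 2} : Set G) := by
    intro g hg
    have h1 := hnorm g hg
    have h2 : (g * u * g⁻¹) ^ 2 ∈ zpowers u := (zpowers u).pow_mem h1 2
    have h3 : orderOf ((g * u * g⁻¹) ^ 2) = 2 := by
      rw [conj_pow, orderOf_conj_eq]
      exact orderOf_sq_of_four u hu
    have h4 := inv_mem_zpowers_four u _ hu h2 h3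
    rw [conj_pow] at h4
    apply mem_centralizer_singleton_of_comm
    calc g * u ^ 2 = g * u ^ 2 * g⁻¹ * g := by group
      _ = u ^ 2 * g := by rw [h4]
  have h5 := Subgroup.card_dvd_of_le hSC
  rwa [hS8] at h5

theorem eight_dvd_centralizer_inv (hG : Nat.card G = 2520) (u : G) (hu : orderOf u = 4) (z : G)
    (hz : orderOf z = 2) : 8 ∣ Nat.card (centralizer ({z} : Set G)) := by
  obtain ⟨g, hg⟩ := thompson_conj hG u hu z hz
  rw [← card_centralizer_conj g z, hg]
  exact eight_dvd_centralizer_sq hG u hu

theorem card_centralizer5 (hG : Nat.card G = 2520) (hno : ∀ H : Subgroup G, H.index ≠ 7)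
    (Q : Sylow 5 G) : Nat.card (centralizer ((Q : Subgroup G) : Set G)) = 5 := by
  have hnp := not_prime_2520 hG
  have hp5 : Fact (Nat.Prime 5) := ⟨by norm_num⟩
  have hp2 : Fact (Nat.Prime 2) := ⟨Nat.prime_two⟩
  have hQ := card_sylow5_sub hG Q
  have hN20 := card_normalizer5 hG hno Q
  obtain ⟨hr4, hrC⟩ := relIndex_centralizer_of_card_prime (G := G) 5 (Q : Subgroup G) hQ
  rw [hN20] at hrC
  set C := centralizer ((Q : Subgroup G) : Set G) with hC
  have hCN : C ≤ normalizer ((Q : Subgroup G) : Set G) := Subgroup.centralizer_le_normalizer _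
  have hcases : Nat.card C = 20 ∨ Nat.card C = 10 ∨ Nat.card C = 5 := by
    generalize C.relIndex (normalizer ((Q : Subgroup G) : Set G)) = r at hr4 hrC
    generalize Nat.card C = c at hrC ⊢
    have hr : r ≤ 4 := Nat.le_of_dvd (by norm_num) hr4
    interval_cases r <;> omega
  rcases hcases with h20 | h10 | h5
  · exfalso
    apply not_normalizer_le_centralizer hnp 5 (by rw [hG]; norm_num) Q
    have : C = normalizer ((Q : Subgroup G) : Set G) :=
      Subgroup.eq_of_le_of_card_ge hCN (by rw [h20, hN20])
    rw [← this]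
  · exfalso
    obtain ⟨z, hzC, hz2⟩ := exists_orderOf_mem C 2 (by rw [h10]; norm_num)
    have hzz : z * z = 1 := by rw [← pow_two, ← hz2]; exact pow_orderOf_eq_one z
    obtain ⟨q, hqQ, hq5⟩ := exists_orderOf_mem (Q : Subgroup G) 5 (by rw [hQ])
    have hq1 : q ≠ 1 := by
      intro h; rw [h, orderOf_one] at hq5; omega
    have hzq : zpowers q = (Q : Subgroup G) :=
      zpowers_eq_of_mem_of_card_prime (by norm_num) _ hQ q hqQ hq1
    have hq5' : q ^ 5 = 1 := by rw [← hq5]; exact pow_orderOf_eq_one q
    have hzq_comm : q * z = z * q := mem_centralizer_iff.mp hzC q hqQ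
    have hqC : q ∈ C := by
      rw [hC, mem_centralizer_iff]
      intro h hh
      rw [← hzq] at hh
      obtain ⟨n, rfl⟩ := mem_zpowers_iff.mp hh
      exact ((Commute.refl q).zpow_left n).eq
    have hQC : (Q : Subgroup G) ≤ C := by rw [← hzq, zpowers_le]; exact hqC
    have hmemC : ∀ k : G, q * k = k * q → k ∈ C := by
      intro k hk
      rw [hC, mem_centralizer_iff]
      intro h hh
      rw [← hzq] at hh
      obtain ⟨n, rfl⟩ := mem_zpowers_iff.mp hh
      have hc : Commute q k := hk
      exact (hc.zpow_left n).eq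
    have hCz : C ≤ centralizer ({z} : Set G) := by
      have h1 : 5 ∣ Nat.card (C ⊓ centralizer ({z} : Set G) : Subgroup G) := by
        have hle : zpowers q ≤ C ⊓ centralizer ({z} : Set G) := by
          rw [zpowers_le]; exact ⟨hqC, mem_centralizer_singleton_of_comm hzq_comm⟩
        have h := Subgroup.card_dvd_of_le hle
        rwa [Nat.card_zpowers, hq5] at h
      have h2 : 2 ∣ Nat.card (C ⊓ centralizer ({z} : Set G) : Subgroup G) := by
        have hle : zpowers z ≤ C ⊓ centralizer ({z} : Set G) := by
          rw [zpowers_le]; exact ⟨hzC, mem_centralizer_singleton_of_comm rfl⟩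
        have h := Subgroup.card_dvd_of_le hle
        rwa [Nat.card_zpowers, hz2] at h
      have h3 : Nat.card (C ⊓ centralizer ({z} : Set G) : Subgroup G) ∣ 10 := by
        rw [← h10]; exact Subgroup.card_dvd_of_le inf_le_left
      have h4 : C ⊓ centralizer ({z} : Set G) = C :=
        Subgroup.eq_of_le_of_card_ge inf_le_left (by
          rw [h10]
          generalize Nat.card (C ⊓ centralizer ({z} : Set G) : Subgroup G) = d at h1 h2 h3 ⊢
          have : d ≤ 10 := Nat.le_of_dvd (by norm_num) h3
          interval_cases d <;> omega)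
      rw [← h4]; exact inf_le_right
    have hnotQ : ∀ x : G, orderOf x = 2 → x ∉ (Q : Subgroup G) := by
      intro x hx hxQ
      have h1 : orderOf (⟨x, hxQ⟩ : (Q : Subgroup G)) ∣ Nat.card (Q : Subgroup G) :=
        orderOf_dvd_natCard _
      rw [hQ, ← Subgroup.orderOf_coe] at h1
      simp only at h1
      rw [hx] at h1
      omega
    have huniq : ∀ z2 ∈ C, orderOf z2 = 2 → z2 = z := by
      intro z2 hz2C hz22
      have hz2z2 : z2 * z2 = 1 := by rw [← pow_two, ← hz22]; exact pow_orderOf_eq_one z2
      have hidx : ((Q : Subgroup G).subgroupOf C).index = 2 := by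
        show (Q : Subgroup G).relIndex C = 2
        have h := relIndex_mul_card_of_le hQC
        rw [h10, hQ] at h
        omega
      have key := Subgroup.mul_mem_iff_of_index_two hidx (a := (⟨z, hzC⟩ : C))
        (b := (⟨z2, hz2C⟩ : C))
      have h1 : (⟨z, hzC⟩ : C) * ⟨z2, hz2C⟩ ∈ (Q : Subgroup G).subgroupOf C :=
        key.mpr ⟨fun h => absurd (mem_subgroupOf.mp h) (hnotQ z hz2),
          fun h => absurd (mem_subgroupOf.mp h) (hnotQ z2 hz22)⟩
      have h2 : z * z2 ∈ (Q : Subgroup G) := mem_subgroupOf.mp h1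
      have hcomm : z2 * z = z * z2 := comm_of_mem_centralizer_singleton (hCz hz2C)
      have h3 : (z * z2) ^ 2 = 1 := by
        rw [pow_two]
        calc z * z2 * (z * z2) = z * (z2 * z) * z2 := by group
          _ = z * (z * z2) * z2 := by rw [hcomm]
          _ = (z * z) * (z2 * z2) := by group
          _ = 1 := by rw [hzz, hz2z2, one_mul]
      have h4 : orderOf (z * z2) ∣ 2 := orderOf_dvd_of_pow_eq_one h3
      have h5 : orderOf (z * z2) ∣ 5 := by
        have h6 : orderOf (⟨z * z2, h2⟩ : (Q : Subgroup G)) ∣ Nat.card (Q : Subgroup G) :=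
          orderOf_dvd_natCard _
        rw [hQ, ← Subgroup.orderOf_coe] at h6
        exact h6
      have h6 : orderOf (z * z2) = 1 := by
        have h7 := Nat.dvd_gcd h4 h5
        have h8 : Nat.gcd 2 5 = 1 := by decide
        rw [h8] at h7
        exact Nat.dvd_one.mp h7
      have h7 : z * z2 = 1 := orderOf_eq_one_iff.mp h6
      calc z2 = z⁻¹ * (z * z2) := by group
        _ = z⁻¹ := by rw [h7, mul_one]
        _ = z := inv_eq_of_mul_eq_one_right hzz
    have hNz : normalizer ((Q : Subgroup G) : Set G) ≤ centralizer ({z} : Set G) := by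
      intro n hn
      have h1 : n * z * n⁻¹ ∈ C := conj_mem_centralizer_of_mem_normalizer hn hzC
      have h2 := huniq _ h1 (by rw [orderOf_conj_eq, hz2])
      apply mem_centralizer_singleton_of_comm
      calc n * z = n * z * n⁻¹ * n := by group
        _ = z * n := by rw [h2]
    set X := centralizer ({z} : Set G) with hX
    have hQX : (Q : Subgroup G) ≤ X := le_normalizer.trans hNz
    have hX7 : ¬ 7 ∣ Nat.card X :=
      not_seven_dvd_centralizer hG z (by rw [hz2]; norm_num) (by rw [hz2]; norm_num)
    have hXd : Nat.card X ∣ 2520 := card_dvd_2520 hG X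
    have hXd360 : Nat.card X ∣ 360 := by
      have hc : Nat.Coprime (Nat.card X) 7 :=
        Nat.Coprime.symm ((Nat.Prime.coprime_iff_not_dvd (by norm_num)).mpr hX7)
      exact hc.dvd_of_dvd_mul_left (by norm_num; exact hXd)
    have h5X : 5 ∣ Nat.card X := by
      have h := Subgroup.card_dvd_of_le hQX
      rwa [hQ] at h
    obtain ⟨m, hm⟩ := h5X
    have hm5 : ¬ 5 ∣ m := by
      rintro ⟨k, rfl⟩
      rw [hm] at hXd
      have : 25 ∣ 2520 := Dvd.dvd.trans ⟨k, by ring⟩ hXd
      omega
    obtain ⟨n, hn5, hnA⟩ := sylow_sub_count (p := 5) X (Q : Subgroup G) hQX 1 m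
      (by rw [hQ]; norm_num) (by rw [hm]; norm_num) hm5
    have hA : X ⊓ normalizer ((Q : Subgroup G) : Set G) = normalizer ((Q : Subgroup G) : Set G) :=
      inf_eq_right.mpr hNz
    rw [hA, hN20] at hnA
    have hXc : Nat.card X = 20 ∨ Nat.card X = 120 := by
      rw [← hnA] at hXd360 ⊢
      have hle : n * 20 ≤ 360 := Nat.le_of_dvd (by norm_num) hXd360
      obtain ⟨j, hj⟩ := hXd360
      have hn18 : n ≤ 18 := by omega
      interval_cases n <;> omega
    rcases hXc with hX20 | hX120
    · obtain ⟨S, hS⟩ := (IsPGroup.of_card (p := 2) (n := 1)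
        (by rw [Nat.card_zpowers, hz2, pow_one]) : IsPGroup 2 (zpowers z)).exists_le_sylow
      have hS8 := card_sylow2_sub hG S
      have hzS : z ∈ (S : Subgroup G) := hS (mem_zpowers z)
      by_cases hab : ∀ a ∈ (S : Subgroup G), a ^ 2 = 1
      · have hSX : (S : Subgroup G) ≤ X := by
          intro a ha
          apply mem_centralizer_singleton_of_comm
          have h1 : (a * z) * (a * z) = 1 := by
            rw [← pow_two]; exact hab _ ((S : Subgroup G).mul_mem ha hzS)
          have h2 : a * a = 1 := by rw [← pow_two]; exact hab a ha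
          calc a * z = (a * z)⁻¹ := (inv_eq_of_mul_eq_one_right h1).symm
            _ = z⁻¹ * a⁻¹ := mul_inv_rev a z
            _ = z * a := by
              rw [inv_eq_of_mul_eq_one_right hzz, inv_eq_of_mul_eq_one_right h2]
        have h8 := Subgroup.card_dvd_of_le hSX
        rw [hS8, hX20] at h8
        omega
      · obtain ⟨a, haS, ha2⟩ : ∃ a ∈ (S : Subgroup G), a ^ 2 ≠ 1 := by
          by_contra hcon
          apply hab
          intro a ha
          by_contra h
          exact hcon ⟨a, ha, h⟩
        obtain ⟨u, hu⟩ := exists_order_four_of_sq_ne_one (S : Subgroup G) hS8 a haS ha2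
        have h8 := eight_dvd_centralizer_inv hG u hu z hz2
        rw [← hX, hX20] at h8
        omega
    · have hcls := card_isConj_mul_card_centralizer z
      rw [← hX, hX120, hG] at hcls
      have hcls21 : Nat.card {h : G // IsConj z h} = 21 := by omega
      obtain ⟨c, hc⟩ := conj_fixed_mod_four hnp z hzz
      rw [hcls21] at hc
      have hzW0 : z ∈ {h : G | IsConj z h ∧ z * h = h * z} := ⟨IsConj.refl z, rfl⟩
      have h5 : 5 ∣ ({h : G | IsConj z h ∧ z * h = h * z} \ {z}).ncard := by
        apply dvd_ncard_of_free_conj 5 _ q hq5'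
        · rintro k ⟨⟨hk1, hk2⟩, hk3⟩
          have hqz : Commute q z := hzq_comm
          refine ⟨⟨isConj_conj_of_commute hk1, ?_⟩, ?_⟩
          · have h6 : Commute (q * k * q⁻¹) z :=
              (commute_conj_iff_of_commute hqz).mpr hk2.symm
            exact h6.symm.eq
          · intro h6
            exact hk3 ((conj_eq_iff_of_commute hqz).mp h6)
        · rintro k ⟨⟨hk1, hk2⟩, hk3⟩ h6
          apply hk3
          have hkq : q * k = k * q := by
            calc q * k = q * k * q⁻¹ * q := by group
              _ = k * q := by rw [h6]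
          have hk2o : orderOf k = 2 := by
            obtain ⟨g, hg⟩ := isConj_iff.mp hk1
            rw [← hg, orderOf_conj_eq, hz2]
          exact huniq k (hmemC k hkq) hk2o
      have hsplit : ({h : G | IsConj z h ∧ z * h = h * z} \ {z}).ncard + 1 =
          {h : G | IsConj z h ∧ z * h = h * z}.ncard :=
        Set.ncard_sdiff_singleton_add_one hzW0
      have hW : {h : G | IsConj z h ∧ z * h = h * z}.ncard = 1 ∨
          {h : G | IsConj z h ∧ z * h = h * z}.ncard = 21 := by
        omega
      rcases hW with hW1 | hW21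
      · obtain ⟨P0, hP0X, hP0⟩ := exists_subgroup_card_le X 2 3 (by rw [hX120]; norm_num)
        obtain ⟨P, hP⟩ := exists_sylow_eq P0 3 315 hP0 (by rw [hG]; norm_num) (by norm_num)
        have hzP0 : z ∈ P0 := by
          obtain ⟨h, hhX, hh⟩ := sylow_sub_conj (p := 2) X P0 hP0X 3 15 hP0
            (by rw [hX120]; norm_num) (by norm_num) (zpowers z)
            (zpowers_le.mpr (mem_centralizer_singleton_of_comm rfl))
            (IsPGroup.of_card (n := 1) (by rw [Nat.card_zpowers, hz2, pow_one]))
          have h6 := hh z (mem_zpowers z)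
          have e : h * z * h⁻¹ = z := by
            rw [comm_of_mem_centralizer_singleton hhX, mul_inv_cancel_right]
          rwa [e] at h6
        have hiso : ∀ g : G, g * z * g⁻¹ ∈ (P : Subgroup G) → g * z * g⁻¹ = z := by
          intro g hg
          rw [hP] at hg
          have h6 : g * z * g⁻¹ ∈ {h : G | IsConj z h ∧ z * h = h * z} :=
            ⟨isConj_iff.mpr ⟨g, rfl⟩, (comm_of_mem_centralizer_singleton (hP0X hg)).symm⟩
          obtain ⟨w, hw⟩ := Set.ncard_eq_one.mp hW1
          rw [hw] at h6 hzW0
          rw [Set.mem_singleton_iff] at h6 hzW0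
          rw [h6, hzW0]
        have hzP : z ∈ (P : Subgroup G) := by rw [hP]; exact hzP0
        obtain ⟨N, hNn, hNodd, hNcomm⟩ := Cfsg.Agent.S0215.result P z hz2 hzP hiso
        have hNbot : N = ⊥ := by
          rcases hNn.eq_bot_or_eq_top with h | h
          · exact h
          · exfalso
            rw [h, Subgroup.card_top, hG] at hNodd
            revert hNodd
            decide
        have hXtop : X = ⊤ := by
          rw [eq_top_iff]
          intro g _
          have h6 := hNcomm g
          rw [hNbot, Subgroup.mem_bot] at h6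
          apply mem_centralizer_singleton_of_comm
          have h7 : z * g = g * z := by
            calc z * g = z * g * z⁻¹ * g⁻¹ * (g * z) := by group
              _ = g * z := by rw [h6, one_mul]
          exact h7.symm
        rw [hXtop, Subgroup.card_top, hG] at hX120
        omega
      · have hall : ∀ a : G, IsConj z a → z * a = a * z := by
          intro a ha
          have hsub : {h : G | IsConj z h ∧ z * h = h * z} ⊆ {h : G | IsConj z h} :=
            fun h hh => hh.1
          have hcard : {h : G | IsConj z h}.ncard = 21 := by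
            rw [← hcls21]; exact (Nat.card_coe_set_eq _).symm
          have heq := Set.eq_of_subset_of_ncard_le hsub (by rw [hcard, hW21])
          have h6 : a ∈ {h : G | IsConj z h ∧ z * h = h * z} := by rw [heq]; exact ha
          exact h6.2
        have hle : Subgroup.normalClosure ({z} : Set G) ≤ X := by
          unfold Subgroup.normalClosure
          rw [Subgroup.closure_le]
          intro a ha
          obtain ⟨b, hb, hba⟩ := Group.mem_conjugatesOfSet_iff.mp ha
          rw [Set.mem_singleton_iff] at hb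
          subst hb
          exact mem_centralizer_singleton_of_comm (hall a hba).symm
        have hnc : Subgroup.normalClosure ({z} : Set G) = ⊤ := by
          rcases (Subgroup.normalClosure_normal (s := ({z} : Set G))).eq_bot_or_eq_top with h | h
          · exfalso
            have h6 : z ∈ Subgroup.normalClosure ({z} : Set G) :=
              Subgroup.subset_normalClosure (Set.mem_singleton z)
            rw [h, Subgroup.mem_bot] at h6
            rw [h6, orderOf_one] at hz2
            omega
          · exact h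
        rw [hnc, top_le_iff] at hle
        rw [hle, Subgroup.card_top, hG] at hX120
        omega
  · exact h5

end Cfsg.Agent.Lib.Helper52.A7
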