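import Mathlib
import Cfsg.Agent.Lib.Helper52.A7.Inv

/-!
Simple groups of order `2520` without a subgroup of index `7`: consequences of `C(Q) = Q` for
Sylow `5`-subgroups; elements of order `4`; centralizers of involutions.
-/

set_option autoImplicit false

namespace Cfsg.Agent.Lib.Helper52.A7

open Subgroup
open Cfsg.Agent.Lib.Helper17
open Cfsg.Agent.Lib.Helper52.PG7920

variable {G : Type*} [Group G] [Finite G] [IsSimpleGroup G]

/-- Elements of order `5` are self-centralizing. -/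
theorem mem_zpowers_of_comm5 (hG : Nat.card G = 2520) (hno : ∀ H : Subgroup G, H.index ≠ 7)
    (x y : G) (hx : orderOf x = 5) (hxy : x * y = y * x) : y ∈ zpowers x := by
  have hp5 : Fact (Nat.Prime 5) := ⟨by norm_num⟩
  have hpg : IsPGroup 5 (zpowers x) :=
    IsPGroup.of_card (n := 1) (by rw [Nat.card_zpowers, hx, pow_one])
  obtain ⟨P, hP⟩ := hpg.exists_le_sylow
  have hP5 := card_sylow5_sub hG P
  have hzP : zpowers x = (P : Subgroup G) :=
    Subgroup.eq_of_le_of_card_ge hP (by rw [hP5, Nat.card_zpowers, hx])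
  have hC5 := card_centralizer5 hG hno P
  have hzC : zpowers x ≤ centralizer ((P : Subgroup G) : Set G) := by
    rw [zpowers_le, mem_centralizer_iff]
    intro g hg
    rw [← hzP] at hg
    obtain ⟨n, rfl⟩ := mem_zpowers_iff.mp hg
    exact ((Commute.refl x).zpow_left n).eq
  have hzC' : zpowers x = centralizer ((P : Subgroup G) : Set G) :=
    Subgroup.eq_of_le_of_card_ge hzC (by rw [hC5, Nat.card_zpowers, hx])
  rw [hzC', mem_centralizer_iff]
  intro g hg
  rw [← hzP] at hg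
  obtain ⟨n, rfl⟩ := mem_zpowers_iff.mp hg
  have hc : Commute x y := hxy
  exact (hc.zpow_left n).eq

theorem orderOf_of_comm5 (hG : Nat.card G = 2520) (hno : ∀ H : Subgroup G, H.index ≠ 7)
    (x y : G) (hx : orderOf x = 5) (hxy : x * y = y * x) : orderOf y = 1 ∨ orderOf y = 5 := by
  have h1 := mem_zpowers_of_comm5 hG hno x y hx hxy
  have h2 : orderOf y ∣ 5 := by
    rw [← hx]
    exact orderOf_dvd_of_mem_zpowers h1
  exact (Nat.dvd_prime (by norm_num)).mp h2

theorem not_five_dvd_centralizer (hG : Nat.card G = 2520) (hno : ∀ H : Subgroup G, H.index ≠ 7)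
    (y : G) (hy : orderOf y ≠ 1) (hy5 : orderOf y ≠ 5) :
    ¬ 5 ∣ Nat.card (centralizer ({y} : Set G)) := by
  intro h
  have hp5 : Fact (Nat.Prime 5) := ⟨by norm_num⟩
  obtain ⟨x, hxC, hx5⟩ := exists_orderOf_mem _ 5 h
  have h1 := orderOf_of_comm5 hG hno x y hx5 (comm_of_mem_centralizer_singleton hxC)
  omega

theorem exists_order_four (hG : Nat.card G = 2520) (hno : ∀ H : Subgroup G, H.index ≠ 7) :
    ∃ u : G, orderOf u = 4 := by
  by_contra hcon
  have hp5 : Fact (Nat.Prime 5) := ⟨by norm_num⟩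
  have hp2 : Fact (Nat.Prime 2) := ⟨Nat.prime_two⟩
  obtain ⟨Q⟩ : Nonempty (Sylow 5 G) := inferInstance
  have hQ := card_sylow5_sub hG Q
  have hN20 := card_normalizer5 hG hno Q
  obtain ⟨D, hDN, hD4⟩ := exists_subgroup_card_le (normalizer ((Q : Subgroup G) : Set G)) 2 2
    (by rw [hN20]; norm_num)
  have hD4' : Nat.card D = 4 := by rw [hD4]; norm_num
  have hsq : ∀ d ∈ D, d ^ 2 = 1 := by
    intro d hd
    have h1 : orderOf (⟨d, hd⟩ : D) ∣ Nat.card D := orderOf_dvd_natCard _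
    rw [hD4', ← Subgroup.orderOf_coe] at h1
    simp only at h1
    have h2 : orderOf d ≠ 4 := fun h => hcon ⟨d, h⟩
    have h3 : orderOf d ∣ 2 := by
      have hle : orderOf d ≤ 4 := Nat.le_of_dvd (by norm_num) h1
      interval_cases (orderOf d) <;> omega
    exact orderOf_dvd_iff_pow_eq_one.mp h3
  obtain ⟨q, hqQ, hq5⟩ := exists_orderOf_mem (Q : Subgroup G) 5 (by rw [hQ])
  have hq1 : q ≠ 1 := by
    intro h; rw [h, orderOf_one] at hq5; omega
  have hzq : zpowers q = (Q : Subgroup G) :=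
    zpowers_eq_of_mem_of_card_prime (by norm_num) _ hQ q hqQ hq1
  -- a nontrivial element of `D` commuting with an element of order `5` is impossible
  have hno5 : ∀ s ∈ D, s ≠ 1 → ∀ e : G, orderOf e = 5 → e * s ≠ s * e := by
    intro s hs hs1 e he hes
    have h1 := orderOf_of_comm5 hG hno e s he hes
    have h2 : orderOf s ∣ 2 := orderOf_dvd_of_pow_eq_one (hsq s hs)
    have h3 : orderOf s ≠ 1 := fun h => hs1 (orderOf_eq_one_iff.mp h)
    have h4 : orderOf s ≤ 2 := Nat.le_of_dvd (by norm_num) h2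
    omega
  have hinv : ∀ s ∈ D, s ≠ 1 → s * q * s⁻¹ = q⁻¹ := by
    intro s hs hs1
    have hsN := hDN hs
    have hq' : s * q * s⁻¹ ∈ (Q : Subgroup G) := (mem_normalizer_iff.mp hsN q).mp hqQ
    have hss : s * s = 1 := by rw [← pow_two]; exact hsq s hs
    have hsinv : s⁻¹ = s := inv_eq_of_mul_eq_one_right hss
    have hcomm : q * (s * q * s⁻¹) = (s * q * s⁻¹) * q := by
      rw [← hzq] at hq'
      obtain ⟨n, hn⟩ := mem_zpowers_iff.mp hq'
      rw [← hn]
      exact ((Commute.refl q).zpow_right n).eq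
    by_contra hne
    have he1 : q * (s * q * s⁻¹) ≠ 1 := by
      intro h
      apply hne
      exact (inv_eq_of_mul_eq_one_right h).symm
    have heQ : q * (s * q * s⁻¹) ∈ (Q : Subgroup G) := (Q : Subgroup G).mul_mem hqQ hq'
    have he5 : orderOf (q * (s * q * s⁻¹)) = 5 :=
      orderOf_eq_of_mem_of_card_prime (by norm_num) _ hQ _ heQ he1
    apply hno5 s hs hs1 _ he5
    rw [hsinv] at hcomm ⊢
    calc q * (s * q * s) * s = (s * q * s) * q * s := by rw [hcomm]
      _ = s * (q * (s * q * s)) := by group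
  obtain ⟨z1, hz1D, hz1⟩ : ∃ z1 ∈ D, z1 ≠ 1 := by
    by_contra h
    have hbot : D = ⊥ := by
      rw [eq_bot_iff]
      intro d hd
      by_contra hd1
      exact h ⟨d, hd, fun h1 => hd1 (by rw [h1]; exact Subgroup.mem_bot.mpr rfl)⟩
    rw [hbot, Subgroup.card_bot] at hD4'
    omega
  have hz1o : orderOf z1 = 2 := by
    have h2 : orderOf z1 ∣ 2 := orderOf_dvd_of_pow_eq_one (hsq z1 hz1D)
    have h3 : orderOf z1 ≠ 1 := fun h => hz1 (orderOf_eq_one_iff.mp h)
    have h4 : orderOf z1 ≤ 2 := Nat.le_of_dvd (by norm_num) h2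
    have h5 : 0 < orderOf z1 := orderOf_pos z1
    omega
  obtain ⟨z2, hz2D, hz2⟩ : ∃ z2 ∈ D, z2 ∉ zpowers z1 := by
    by_contra h
    have hle : D ≤ zpowers z1 := by
      intro d hd
      by_contra hd1
      exact h ⟨d, hd, hd1⟩
    have h1 := Subgroup.card_le_of_le hle
    rw [hD4', Nat.card_zpowers, hz1o] at h1
    omega
  have hz2ne : z2 ≠ 1 := fun h => hz2 (h ▸ (zpowers z1).one_mem)
  have hprod1 : z1 * z2 ≠ 1 := by
    intro h
    apply hz2
    have : z2 = z1⁻¹ := by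
      calc z2 = z1⁻¹ * (z1 * z2) := by group
        _ = z1⁻¹ := by rw [h, mul_one]
    rw [this]
    exact (zpowers z1).inv_mem (mem_zpowers z1)
  apply hno5 (z1 * z2) (D.mul_mem hz1D hz2D) hprod1 q hq5
  have h1 := hinv z1 hz1D hz1
  have h2 := hinv z2 hz2D hz2ne
  have h3 : z1 * z2 * q * (z1 * z2)⁻¹ = q := by
    calc z1 * z2 * q * (z1 * z2)⁻¹ = z1 * (z2 * q * z2⁻¹) * z1⁻¹ := by group
      _ = z1 * q⁻¹ * z1⁻¹ := by rw [h2]
      _ = (z1 * q * z1⁻¹)⁻¹ := by group
      _ = q := by rw [h1, inv_inv]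
  calc q * (z1 * z2) = z1 * z2 * q * (z1 * z2)⁻¹ * (z1 * z2) := by rw [h3]
    _ = z1 * z2 * q := by group

theorem inv_conj (hG : Nat.card G = 2520) (hno : ∀ H : Subgroup G, H.index ≠ 7) (z z' : G)
    (hz : orderOf z = 2) (hz' : orderOf z' = 2) : ∃ g, g * z * g⁻¹ = z' := by
  obtain ⟨u, hu⟩ := exists_order_four hG hno
  obtain ⟨g1, hg1⟩ := thompson_conj hG u hu z hz
  obtain ⟨g2, hg2⟩ := thompson_conj hG u hu z' hz'
  refine ⟨g2⁻¹ * g1, ?_⟩
  calc g2⁻¹ * g1 * z * (g2⁻¹ * g1)⁻¹ = g2⁻¹ * (g1 * z * g1⁻¹) * g2 := by group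
    _ = g2⁻¹ * (g2 * z' * g2⁻¹) * g2 := by rw [hg1, hg2]
    _ = z' := by group

theorem eight_dvd_inv (hG : Nat.card G = 2520) (hno : ∀ H : Subgroup G, H.index ≠ 7) (z : G)
    (hz : orderOf z = 2) : 8 ∣ Nat.card (centralizer ({z} : Set G)) := by
  obtain ⟨u, hu⟩ := exists_order_four hG hno
  exact eight_dvd_centralizer_inv hG u hu z hz

theorem card_centralizer_inv_cases (hG : Nat.card G = 2520)
    (hno : ∀ H : Subgroup G, H.index ≠ 7) (z : G) (hz : orderOf z = 2) :
    Nat.card (centralizer ({z} : Set G)) = 8 ∨ Nat.card (centralizer ({z} : Set G)) = 24 ∨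
      Nat.card (centralizer ({z} : Set G)) = 72 := by
  have h8 := eight_dvd_inv hG hno z hz
  have h7 := not_seven_dvd_centralizer hG z (by rw [hz]; norm_num) (by rw [hz]; norm_num)
  have h5 := not_five_dvd_centralizer hG hno z (by rw [hz]; norm_num) (by rw [hz]; norm_num)
  have hd := card_dvd_2520 hG (centralizer ({z} : Set G))
  generalize Nat.card (centralizer ({z} : Set G)) = c at h8 h7 h5 hd ⊢
  have h72 : c ∣ 72 := by
    have hc7 : Nat.Coprime c 7 :=
      Nat.Coprime.symm ((Nat.Prime.coprime_iff_not_dvd (by norm_num)).mpr h7)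
    have hc5 : Nat.Coprime c 5 :=
      Nat.Coprime.symm ((Nat.Prime.coprime_iff_not_dvd (by norm_num)).mpr h5)
    have h360 : c ∣ 360 := hc7.dvd_of_dvd_mul_left (by norm_num; exact hd)
    exact hc5.dvd_of_dvd_mul_left (by norm_num; exact h360)
  have hle : c ≤ 72 := Nat.le_of_dvd (by norm_num) h72
  have key : ∀ c < 73, (c ∣ 72 ∧ 8 ∣ c) → c = 8 ∨ c = 24 ∨ c = 72 := by decide
  exact key c (by omega) ⟨h72, h8⟩

end Cfsg.Agent.Lib.Helper52.A7
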