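import Mathlib
import Cfsg.Agent.Lib.Helper52.A7.Inv2

/-!
Simple groups of order `2520` without a subgroup of index `7`: the Sylow `3`-subgroups are
self-centralizing, and centralizers of involutions have order `8` or `24`.
-/

set_option autoImplicit false

namespace Cfsg.Agent.Lib.Helper52.A7

open Subgroup
open Cfsg.Agent.Lib.Helper17
open Cfsg.Agent.Lib.Helper52.PG7920

section General

variable {G : Type*} [Group G]

theorem mul_mem_iff_of_relIndex_two {A N : Subgroup G} (h : A.relIndex N = 2)
    {x y : G} (hx : x ∈ N) (hy : y ∈ N) : x * y ∈ A ↔ (x ∈ A ↔ y ∈ A) := by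
  have hidx : (A.subgroupOf N).index = 2 := h
  have key := Subgroup.mul_mem_iff_of_index_two hidx (a := (⟨x, hx⟩ : N)) (b := (⟨y, hy⟩ : N))
  simpa [mem_subgroupOf] using key

theorem mem_zpowers_four_cases (u x : G) (hu : orderOf u = 4) (hx : x ∈ zpowers u)
    (hx4 : orderOf x = 4) : x = u ∨ x = u⁻¹ := by
  obtain ⟨k, rfl⟩ := mem_zpowers_iff.mp hx
  have h1 : u ^ k = u ^ (k % 4) := by
    have h := zpow_mod_orderOf u k
    rw [hu] at h
    exact h.symm
  have h4 : u ^ 4 = 1 := by rw [← hu]; exact pow_orderOf_eq_one u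
  have hk : k % 4 = 0 ∨ k % 4 = 1 ∨ k % 4 = 2 ∨ k % 4 = 3 := by omega
  rw [h1] at hx4 ⊢
  rcases hk with h | h | h | h <;> rw [h] at hx4 ⊢
  · rw [zpow_zero, orderOf_one] at hx4
    omega
  · left; exact zpow_one u
  · exfalso
    have h2 : u ^ (2 : ℤ) = u ^ 2 := zpow_ofNat u 2
    rw [h2, orderOf_sq_of_four u hu] at hx4
    omega
  · right
    rw [eq_inv_iff_mul_eq_one]
    have e : u ^ (3 : ℤ) * u = u ^ 4 := by
      rw [zpow_ofNat]; group
    rw [e, h4]

theorem mem_zpowers_three_cases (d y : G) (hd : orderOf d = 3) (hy : y ∈ zpowers d)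
    (hy1 : y ≠ 1) : y = d ∨ y = d⁻¹ := by
  obtain ⟨k, rfl⟩ := mem_zpowers_iff.mp hy
  have h1 : d ^ k = d ^ (k % 3) := by
    have h := zpow_mod_orderOf d k
    rw [hd] at h
    exact h.symm
  have h3 : d ^ 3 = 1 := by rw [← hd]; exact pow_orderOf_eq_one d
  have hk : k % 3 = 0 ∨ k % 3 = 1 ∨ k % 3 = 2 := by omega
  rw [h1] at hy1 ⊢
  rcases hk with h | h | h <;> rw [h] at hy1 ⊢
  · exact absurd (zpow_zero d) hy1
  · left; exact zpow_one d
  · right
    rw [eq_inv_iff_mul_eq_one]
    have e : d ^ (2 : ℤ) * d = d ^ 3 := by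
      rw [zpow_ofNat]; group
    rw [e, h3]

/-- In a group of order `8`, all elements of order `4` have the same square. -/
theorem sq_eq_of_card_eight [Finite G] (K : Subgroup G) (hK : Nat.card K = 8) (u k : G)
    (huK : u ∈ K) (hkK : k ∈ K) (hu : orderOf u = 4) (hk : orderOf k = 4) : k ^ 2 = u ^ 2 := by
  have hT : zpowers u ≤ K := zpowers_le.mpr huK
  have hrel : (zpowers u).relIndex K = 2 := by
    have h := relIndex_mul_card_of_le hT
    rw [hK, Nat.card_zpowers, hu] at h
    omega
  have h1 : k * k ∈ zpowers u := by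
    rw [mul_mem_iff_of_relIndex_two hrel hkK hkK]
  have h2 : orderOf (k ^ 2) = 2 := orderOf_sq_of_four k hk
  rw [← pow_two] at h1
  exact inv_mem_zpowers_four u (k ^ 2) hu h1 h2

/-- If `A` is a central subgroup of odd order and index `2` in `C`, then `C` has at most one
involution. -/
theorem unique_inv_aux [Finite G] {A C : Subgroup G} (hAC : A ≤ C) (m : ℕ) (hm : ¬ 2 ∣ m)
    (hA : Nat.card A = m) (hC : Nat.card C = 2 * m)
    (hcen : ∀ a ∈ A, ∀ c ∈ C, a * c = c * a) (z z2 : G) (hz : z ∈ C) (hz2 : z2 ∈ C)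
    (hzo : orderOf z = 2) (hz2o : orderOf z2 = 2) : z = z2 := by
  have hm0 : 0 < m := by
    rcases Nat.eq_zero_or_pos m with h0 | h0
    · exfalso; apply hm; rw [h0]; exact dvd_zero 2
    · exact h0
  have hrel : A.relIndex C = 2 := by
    have h := relIndex_mul_card_of_le hAC
    rw [hA, hC] at h
    exact Nat.eq_of_mul_eq_mul_right hm0 h
  have hnot : ∀ y : G, orderOf y = 2 → y ∉ A := by
    intro y hy hyA
    have h1 : orderOf y ∣ Nat.card A := Subgroup.orderOf_dvd_natCard A hyA
    rw [hy, hA] at h1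
    exact hm h1
  have h1 : z * z2 ∈ A := by
    rw [mul_mem_iff_of_relIndex_two hrel hz hz2]
    exact ⟨fun h => absurd h (hnot z hzo), fun h => absurd h (hnot z2 hz2o)⟩
  have hzz : z * z = 1 := by rw [← pow_two, ← hzo, pow_orderOf_eq_one]
  have hz2z2 : z2 * z2 = 1 := by rw [← pow_two, ← hz2o, pow_orderOf_eq_one]
  have h2 := hcen (z * z2) h1 z hz
  have h3 : z2 * z = z * z2 := by
    have := congrArg (fun x => z⁻¹ * x) h2
    simp only [mul_assoc, inv_mul_cancel_left] at this
    exact this
  have h4 : (z * z2) ^ 2 = 1 := by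
    rw [pow_two]
    calc z * z2 * (z * z2) = z * (z2 * z) * z2 := by group
      _ = z * (z * z2) * z2 := by rw [h3]
      _ = (z * z) * (z2 * z2) := by group
      _ = 1 := by rw [hzz, hz2z2, one_mul]
  have h5 : orderOf (z * z2) ∣ 2 := orderOf_dvd_of_pow_eq_one h4
  have h6 : orderOf (z * z2) ∣ m := by
    rw [← hA]; exact Subgroup.orderOf_dvd_natCard A h1
  have h7 : orderOf (z * z2) = 1 := by
    rcases (Nat.dvd_prime Nat.prime_two).mp h5 with h | h
    · exact h
    · exfalso; apply hm; rw [← h]; exact h6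
  have h8 : z * z2 = 1 := orderOf_eq_one_iff.mp h7
  calc z = z * (z2 * z2) := by rw [hz2z2, mul_one]
    _ = (z * z2) * z2 := by group
    _ = z2 := by rw [h8, one_mul]

end General

variable {G : Type*} [Group G] [Finite G] [IsSimpleGroup G]

/-- Sylow `3`-subgroups are self-centralizing. -/
theorem card_centralizer3 (hG : Nat.card G = 2520) (hno : ∀ H : Subgroup G, H.index ≠ 7)
    (R : Sylow 3 G) : Nat.card (centralizer ((R : Subgroup G) : Set G)) = 9 := by
  have hnp := not_prime_2520 hG
  have hp3 : Fact (Nat.Prime 3) := ⟨by norm_num⟩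
  have hp2 : Fact (Nat.Prime 2) := ⟨Nat.prime_two⟩
  have hR := card_sylow3_sub hG R
  have hN := card_normalizer3 hG hno R
  have hcomm := sylow3_comm hG R
  have hRC : (R : Subgroup G) ≤ centralizer ((R : Subgroup G) : Set G) := by
    intro x hx
    rw [mem_centralizer_iff]
    intro y hy
    exact hcomm y hy x hx
  have hCN : centralizer ((R : Subgroup G) : Set G) ≤ normalizer ((R : Subgroup G) : Set G) :=
    Subgroup.centralizer_le_normalizer _
  have h1 : 9 ∣ Nat.card (centralizer ((R : Subgroup G) : Set G)) := by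
    rw [← hR]; exact Subgroup.card_dvd_of_le hRC
  have h2 : Nat.card (centralizer ((R : Subgroup G) : Set G)) ∣ 36 := by
    rw [← hN]; exact Subgroup.card_dvd_of_le hCN
  have h3 : Nat.card (centralizer ((R : Subgroup G) : Set G)) = 9 ∨
      Nat.card (centralizer ((R : Subgroup G) : Set G)) = 18 ∨
      Nat.card (centralizer ((R : Subgroup G) : Set G)) = 36 := by
    have hle : Nat.card (centralizer ((R : Subgroup G) : Set G)) ≤ 36 :=
      Nat.le_of_dvd (by norm_num) h2
    have key : ∀ n < 37, (9 ∣ n ∧ n ∣ 36) → n = 9 ∨ n = 18 ∨ n = 36 := by decide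
    exact key _ (by omega) ⟨h1, h2⟩
  rcases h3 with h | h | h
  · exact h
  · exfalso
    obtain ⟨z, hzC, hzo⟩ := exists_orderOf_mem (centralizer ((R : Subgroup G) : Set G)) 2
      (by rw [h]; norm_num)
    have hcen : ∀ a ∈ (R : Subgroup G), ∀ c ∈ centralizer ((R : Subgroup G) : Set G),
        a * c = c * a := by
      intro a ha c hc
      rw [mem_centralizer_iff] at hc
      exact hc a ha
    have hNz : normalizer ((R : Subgroup G) : Set G) ≤ centralizer ({z} : Set G) := by
      intro n hn
      apply mem_centralizer_singleton_of_comm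
      have h1' : n * z * n⁻¹ ∈ centralizer ((R : Subgroup G) : Set G) :=
        conj_mem_centralizer_of_mem_normalizer hn hzC
      have h2' : orderOf (n * z * n⁻¹) = 2 := by rw [orderOf_conj_eq, hzo]
      have h3' := unique_inv_aux hRC 9 (by norm_num) hR (by rw [h]) hcen z (n * z * n⁻¹)
        hzC h1' hzo h2'
      calc n * z = (n * z * n⁻¹) * n := by group
        _ = z * n := by rw [← h3']
    have h36 : 36 ∣ Nat.card (centralizer ({z} : Set G)) := by
      rw [← hN]; exact Subgroup.card_dvd_of_le hNz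
    have h72 : Nat.card (centralizer ({z} : Set G)) = 72 := by
      rcases card_centralizer_inv_cases hG hno z hzo with h' | h' | h'
      · rw [h'] at h36; omega
      · rw [h'] at h36; omega
      · exact h'
    have hrel : (normalizer ((R : Subgroup G) : Set G)).relIndex (centralizer ({z} : Set G)) = 2 := by
      have h' := relIndex_mul_card_of_le hNz
      rw [h72, hN] at h'
      omega
    have hle : centralizer ({z} : Set G) ≤ normalizer ((R : Subgroup G) : Set G) := by
      intro g hg
      by_contra hgN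
      have h5 : ((g⁻¹ • R : Sylow 3 G) : Subgroup G) ≤ normalizer ((R : Subgroup G) : Set G) := by
        intro x hx
        rw [mem_smul_sylow] at hx
        have hx' : g * x * g⁻¹ ∈ (R : Subgroup G) := by simpa using hx
        have h6 := conj_mem_of_relIndex_two hNz hrel hg hgN (le_normalizer hx')
        have e : g⁻¹ * (g * x * g⁻¹) * g = x := by group
        rw [e] at h6
        exact h6
      have h7 := sylow_eq_of_le_normalizer R (g⁻¹ • R) h5
      have h8 : g⁻¹ ∈ normalizer ((R : Subgroup G) : Set G) :=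
        Sylow.smul_eq_iff_mem_normalizer.mp h7
      exact hgN (by simpa using Subgroup.inv_mem _ h8)
    have := Subgroup.card_dvd_of_le hle
    rw [h72, hN] at this
    omega
  · exfalso
    apply not_normalizer_le_centralizer hnp 3 (by rw [hG]; norm_num) R
    have h4 : centralizer ((R : Subgroup G) : Set G) = normalizer ((R : Subgroup G) : Set G) :=
      Subgroup.eq_of_le_of_card_ge hCN (by rw [h, hN])
    rw [h4]

/-- No element of order `2` centralizes a Sylow `3`-subgroup. -/
theorem not_comm_sylow3 (hG : Nat.card G = 2520) (hno : ∀ H : Subgroup G, H.index ≠ 7)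
    (R : Sylow 3 G) (z : G) (hz : orderOf z = 2)
    (h : ∀ r ∈ (R : Subgroup G), r * z = z * r) : False := by
  have hzC : z ∈ centralizer ((R : Subgroup G) : Set G) := by
    rw [mem_centralizer_iff]
    exact h
  have h1 : orderOf z ∣ Nat.card (centralizer ((R : Subgroup G) : Set G)) :=
    Subgroup.orderOf_dvd_natCard _ hzC
  rw [hz, card_centralizer3 hG hno R] at h1
  omega

theorem card_centralizer_inv_ne_72 (hG : Nat.card G = 2520) (hno : ∀ H : Subgroup G, H.index ≠ 7)
    (z : G) (hz : orderOf z = 2) : Nat.card (centralizer ({z} : Set G)) ≠ 72 := by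
  intro h
  have hp3 : Fact (Nat.Prime 3) := ⟨by norm_num⟩
  obtain ⟨K, hKle, hK⟩ := exists_subgroup_card_le (centralizer ({z} : Set G)) 3 2
    (by rw [h]; norm_num)
  obtain ⟨R, hR⟩ := exists_sylow_eq (p := 3) K 2 280 hK (by rw [hG]; norm_num) (by norm_num)
  apply not_comm_sylow3 hG hno R z hz
  intro k hk
  rw [hR] at hk
  exact comm_of_mem_centralizer_singleton (hKle hk)

theorem card_centralizer_inv_cases' (hG : Nat.card G = 2520)
    (hno : ∀ H : Subgroup G, H.index ≠ 7) (z : G) (hz : orderOf z = 2) :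
    Nat.card (centralizer ({z} : Set G)) = 8 ∨ Nat.card (centralizer ({z} : Set G)) = 24 := by
  rcases card_centralizer_inv_cases hG hno z hz with h | h | h
  · left; exact h
  · right; exact h
  · exact absurd h (card_centralizer_inv_ne_72 hG hno z hz)

end Cfsg.Agent.Lib.Helper52.A7
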