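import Mathlib
import Cfsg.Agent.Lib.Helper52.A7.Loc3a

/-!
Simple groups of order `2520` without a subgroup of index `7`: centralizers of involutions have
order `24`.
-/

set_option autoImplicit false

namespace Cfsg.Agent.Lib.Helper52.A7

open Subgroup
open Cfsg.Agent.Lib.Helper17
open Cfsg.Agent.Lib.Helper52.PG7920

variable {G : Type*} [Group G] [Finite G] [IsSimpleGroup G]

/-- Every involution is the square of an element of order `4`. -/
theorem exists_sqrt_inv (hG : Nat.card G = 2520) (hno : ∀ H : Subgroup G, H.index ≠ 7)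
    (z : G) (hz : orderOf z = 2) : ∃ u : G, orderOf u = 4 ∧ u ^ 2 = z := by
  obtain ⟨u0, hu0⟩ := exists_order_four hG hno
  obtain ⟨g, hg⟩ := thompson_conj hG u0 hu0 z hz
  refine ⟨g⁻¹ * u0 * g, ?_, ?_⟩
  · have := orderOf_conj_eq g⁻¹ u0
    rw [inv_inv] at this
    rw [this, hu0]
  · rw [pow_two]
    calc g⁻¹ * u0 * g * (g⁻¹ * u0 * g) = g⁻¹ * (u0 ^ 2) * g := by rw [pow_two]; group
      _ = g⁻¹ * (g * z * g⁻¹) * g := by rw [hg]
      _ = z := by group

theorem card_centralizer_inv (hG : Nat.card G = 2520) (hno : ∀ H : Subgroup G, H.index ≠ 7)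
    (z : G) (hz : orderOf z = 2) : Nat.card (centralizer ({z} : Set G)) = 24 := by
  rcases card_centralizer_inv_cases' hG hno z hz with h8 | h
  swap
  · exact h
  exfalso
  have hnp := not_prime_2520 hG
  have hp2 : Fact (Nat.Prime 2) := ⟨Nat.prime_two⟩
  obtain ⟨u, hu, hu2⟩ := exists_sqrt_inv hG hno z hz
  have huS : u ∈ centralizer ({z} : Set G) := by
    apply mem_centralizer_singleton_of_comm
    rw [← hu2]; group
  have hzz : z * z = 1 := by rw [← pow_two, ← hz, pow_orderOf_eq_one]
  have hT : zpowers u ≤ centralizer ({z} : Set G) := zpowers_le.mpr huS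
  have hrel : (zpowers u).relIndex (centralizer ({z} : Set G)) = 2 := by
    have h := relIndex_mul_card_of_le hT
    rw [h8, Nat.card_zpowers, hu] at h
    omega
  have hzT : z ∈ zpowers u := by rw [← hu2]; exact pow_mem (mem_zpowers u) 2
  have hcl : Nat.card {h : G // IsConj z h} = 315 := by
    have h := card_isConj_mul_card_centralizer z
    rw [h8, hG] at h
    omega
  obtain ⟨c, hc⟩ := conj_fixed_mod_four hnp z hzz
  rw [hcl] at hc
  have hAS : ∀ h ∈ {h : G | IsConj z h ∧ z * h = h * z},
      h ∈ centralizer ({z} : Set G) ∧ orderOf h = 2 := by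
    rintro h ⟨h1, h2⟩
    refine ⟨mem_centralizer_singleton_of_comm h2.symm, ?_⟩
    obtain ⟨c', hc'⟩ := isConj_iff.mp h1
    rw [← hc', orderOf_conj_eq, hz]
  have hzA : z ∈ {h : G | IsConj z h ∧ z * h = h * z} := ⟨IsConj.refl z, rfl⟩
  have hex : ∃ v ∈ {h : G | IsConj z h ∧ z * h = h * z}, v ∉ zpowers u := by
    by_contra hcon
    have hA1 : {h : G | IsConj z h ∧ z * h = h * z} = {z} := by
      ext h
      constructor
      · intro hh
        have h1 : h ∈ zpowers u := by
          by_contra h1
          exact hcon ⟨h, hh, h1⟩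
        have h2 := inv_mem_zpowers_four u h hu h1 (hAS h hh).2
        rw [hu2] at h2
        exact h2
      · intro hh
        rw [Set.mem_singleton_iff] at hh
        rw [hh]
        exact hzA
    rw [hA1, Set.ncard_singleton] at hc
    omega
  obtain ⟨v, hvA, hvT⟩ := hex
  obtain ⟨hvS, hvo⟩ := hAS v hvA
  have hvv : v * v = 1 := by rw [← pow_two, ← hvo, pow_orderOf_eq_one]
  have hvinv : v⁻¹ = v := inv_eq_of_mul_eq_one_left hvv
  have hconj : v * u * v⁻¹ ∈ zpowers u := by
    have h := conj_mem_of_relIndex_two hT hrel (g := v⁻¹) (Subgroup.inv_mem _ hvS)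
      (by rw [hvinv]; exact hvT) (mem_zpowers u)
    rw [inv_inv] at h
    exact h
  have hconj4 : orderOf (v * u * v⁻¹) = 4 := by rw [orderOf_conj_eq, hu]
  rcases mem_zpowers_four_cases u _ hu hconj hconj4 with hcase | hcase
  · -- the abelian case: fusion
    have hform : ∀ s ∈ centralizer ({z} : Set G), ∃ k : ℤ, s = u ^ k ∨ s = v * u ^ k := by
      intro s hs
      by_cases h1 : s ∈ zpowers u
      · obtain ⟨k, hk⟩ := mem_zpowers_iff.mp h1
        exact ⟨k, Or.inl hk.symm⟩
      · have h2 : v * s ∈ zpowers u := by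
          rw [mul_mem_iff_of_relIndex_two hrel hvS hs]
          exact ⟨fun h' => absurd h' hvT, fun h' => absurd h' h1⟩
        obtain ⟨k, hk⟩ := mem_zpowers_iff.mp h2
        refine ⟨k, Or.inr ?_⟩
        rw [hk, ← mul_assoc, hvv, one_mul]
    have cv : Commute v u := by
      show v * u = u * v
      calc v * u = (v * u * v⁻¹) * v := by group
        _ = u * v := by rw [hcase]
    have hScomm : ∀ s1 ∈ centralizer ({z} : Set G), ∀ s2 ∈ centralizer ({z} : Set G),
        s1 * s2 = s2 * s1 := by
      intro s1 h1 s2 h2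
      obtain ⟨k1, hk1⟩ := hform s1 h1
      obtain ⟨k2, hk2⟩ := hform s2 h2
      have cuu : Commute (u ^ k1) (u ^ k2) := (Commute.refl u).zpow_zpow k1 k2
      have cvu : ∀ k : ℤ, Commute v (u ^ k) := fun k => cv.zpow_right k
      rcases hk1 with rfl | rfl <;> rcases hk2 with rfl | rfl
      · exact cuu.eq
      · exact (((cvu k1).symm).mul_right cuu).eq
      · exact ((cvu k2).mul_left cuu).eq
      · exact (Commute.mul_left ((Commute.refl v).mul_right (cvu k2))
          (((cvu k1).symm).mul_right cuu)).eq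
    obtain ⟨P, hP⟩ := exists_sylow_eq (p := 2) (centralizer ({z} : Set G)) 3 315
      (by rw [h8]; norm_num) (by rw [hG]; norm_num) (by norm_num)
    have hmemP : ∀ x : G, x ∈ (P : Subgroup G) ↔ x ∈ centralizer ({z} : Set G) := by
      intro x; rw [hP]
    have : IsMulCommutative (P : Subgroup G) :=
      ⟨⟨fun a b => Subtype.ext (hScomm a ((hmemP a).mp a.2) b ((hmemP b).mp b.2))⟩⟩
    obtain ⟨g', hg'⟩ := inv_conj hG hno z v hz hvo
    have hzP : z ∈ (P : Subgroup G) := (hmemP z).mpr (hT hzT)
    have hvP : (g'⁻¹)⁻¹ * z * g'⁻¹ ∈ (P : Subgroup G) := by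
      rw [inv_inv, hg']; exact (hmemP v).mpr hvS
    obtain ⟨n, hn, hn2⟩ := Sylow.conj_eq_normalizer_conj_of_mem P z g'⁻¹ hzP hvP
    rw [inv_inv, hg'] at hn2
    have hk : n⁻¹ * u * n ∈ centralizer ({z} : Set G) := by
      rw [← hmemP]
      have := (mem_normalizer_iff.mp (Subgroup.inv_mem _ hn) u).mp ((hmemP u).mpr huS)
      simpa using this
    have hk4 : orderOf (n⁻¹ * u * n) = 4 := by
      have := orderOf_conj_eq n⁻¹ u
      rw [inv_inv] at this
      rw [this, hu]
    have hsq := sq_eq_of_card_eight (centralizer ({z} : Set G)) h8 u (n⁻¹ * u * n) huS hk hu hk4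
    have hvz : v = z := by
      calc v = n⁻¹ * z * n := hn2
        _ = n⁻¹ * u ^ 2 * n := by rw [hu2]
        _ = (n⁻¹ * u * n) ^ 2 := by rw [pow_two, pow_two]; group
        _ = u ^ 2 := hsq
        _ = z := hu2
    exact hvT (hvz ▸ hzT)
  · -- the dihedral case: five involutions
    have hA2 : {h : G | IsConj z h ∧ z * h = h * z} =
        insert z (((centralizer ({z} : Set G) : Subgroup G) : Set G) \ (zpowers u : Set G)) := by
      ext h
      constructor
      · intro hh
        obtain ⟨hS', ho⟩ := hAS h hh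
        by_cases h1 : h ∈ zpowers u
        · left
          have h2 := inv_mem_zpowers_four u h hu h1 ho
          rw [hu2] at h2; exact h2
        · right; exact ⟨hS', h1⟩
      · rintro (hh | ⟨hS', h1⟩)
        · rw [hh]; exact hzA
        · have h2 : v * h ∈ zpowers u := by
            rw [mul_mem_iff_of_relIndex_two hrel hvS hS']
            exact ⟨fun h' => absurd h' hvT, fun h' => absurd h' h1⟩
          obtain ⟨k, hk⟩ := mem_zpowers_iff.mp h2
          have hh : h = v * u ^ k := by
            rw [hk, ← mul_assoc, hvv, one_mul]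
          have hinvk : v * u ^ k * v⁻¹ = (u ^ k)⁻¹ := by
            rw [← conj_zpow, hcase, inv_zpow]
          have hhh : h * h = 1 := by
            rw [hh]
            calc v * u ^ k * (v * u ^ k) = (v * u ^ k * v⁻¹) * (v * v) * u ^ k := by group
              _ = 1 := by rw [hinvk, hvv, mul_one, inv_mul_cancel]
          have hne : h ≠ 1 := by
            intro h0
            exact h1 (h0 ▸ one_mem _)
          have ho : orderOf h = 2 := orderOf_eq_prime (by rw [pow_two]; exact hhh) hne
          obtain ⟨g', hg'⟩ := inv_conj hG hno z h hz ho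
          exact ⟨isConj_iff.mpr ⟨g', hg'⟩, (comm_of_mem_centralizer_singleton hS').symm⟩
    have hnotin : z ∉ (((centralizer ({z} : Set G) : Subgroup G) : Set G) \ (zpowers u : Set G)) :=
      fun h => h.2 hzT
    have hdiff : (((centralizer ({z} : Set G) : Subgroup G) : Set G) \
        (zpowers u : Set G)).ncard = 4 := by
      have hsub : (zpowers u : Set G) ⊆ ((centralizer ({z} : Set G) : Subgroup G) : Set G) := hT
      rw [Set.ncard_sdiff hsub]
      have e1 : ((centralizer ({z} : Set G) : Subgroup G) : Set G).ncard = 8 := by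
        rw [← Nat.card_coe_set_eq]; exact h8
      have e2 : (zpowers u : Set G).ncard = 4 := by
        rw [← Nat.card_coe_set_eq]
        have := Nat.card_zpowers u
        rw [hu] at this
        exact this
      rw [e1, e2]
    rw [hA2, Set.ncard_insert_of_notMem hnotin, hdiff] at hc
    omega

end Cfsg.Agent.Lib.Helper52.A7
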