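import Mathlib
import Cfsg.Agent.Lib.Helper52.A7.Loc3b

/-!
Simple groups of order `2520` without a subgroup of index `7`: the normalizer of a Sylow
`3`-subgroup `R` contains an element `u` of order `4`, and the involutions of the normalizer
invert `R`.
-/

set_option autoImplicit false

namespace Cfsg.Agent.Lib.Helper52.A7

open Subgroup
open Cfsg.Agent.Lib.Helper17
open Cfsg.Agent.Lib.Helper52.PG7920

section General

variable {G : Type*} [Group G]

/-- An element whose square inverts an element `a` of order `3` does not normalize `⟨a⟩`. -/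
theorem no_sq_inv (u a : G) (ha : orderOf a = 3) (h1 : u * a * u⁻¹ ∈ zpowers a)
    (h2 : u ^ 2 * a * (u ^ 2)⁻¹ = a⁻¹) : False := by
  have ha1 : a ≠ 1 := by
    intro h; rw [h, orderOf_one] at ha; omega
  have hne : u * a * u⁻¹ ≠ 1 := by
    intro h
    apply ha1
    calc a = u⁻¹ * (u * a * u⁻¹) * u := by group
      _ = 1 := by rw [h]; group
  have hsq : u ^ 2 * a * (u ^ 2)⁻¹ = u * (u * a * u⁻¹) * u⁻¹ := by rw [pow_two]; group
  have haa : u ^ 2 * a * (u ^ 2)⁻¹ = a := by
    rcases mem_zpowers_three_cases a _ ha h1 hne with h | h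
    · rw [hsq, h, h]
    · rw [hsq, h]
      have e : u * a⁻¹ * u⁻¹ = (u * a * u⁻¹)⁻¹ := by group
      rw [e, h, inv_inv]
  rw [h2] at haa
  have h3 : a ^ 2 = 1 := by
    rw [pow_two]
    calc a * a = a⁻¹ * a := by rw [haa]
      _ = 1 := inv_mul_cancel a
  have h4 : orderOf a ∣ 2 := orderOf_dvd_of_pow_eq_one h3
  rw [ha] at h4
  omega

/-- The elements of the abelian subgroup `R` inverted by `t`. -/
def invSub (R : Subgroup G) (hab : ∀ a ∈ R, ∀ b ∈ R, a * b = b * a) (t : G) : Subgroup G where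
  carrier := {r | r ∈ R ∧ t * r * t⁻¹ = r⁻¹}
  mul_mem' := by
    rintro a b ⟨ha, ha'⟩ ⟨hb, hb'⟩
    refine ⟨R.mul_mem ha hb, ?_⟩
    calc t * (a * b) * t⁻¹ = (t * a * t⁻¹) * (t * b * t⁻¹) := by group
      _ = a⁻¹ * b⁻¹ := by rw [ha', hb']
      _ = (b * a)⁻¹ := by group
      _ = (a * b)⁻¹ := by rw [hab b hb a ha]
  one_mem' := ⟨R.one_mem, by group⟩
  inv_mem' := by
    rintro a ⟨ha, ha'⟩
    refine ⟨R.inv_mem ha, ?_⟩
    calc t * a⁻¹ * t⁻¹ = (t * a * t⁻¹)⁻¹ := by group
      _ = a⁻¹⁻¹ := by rw [ha']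

theorem mem_invSub {R : Subgroup G} {hab : ∀ a ∈ R, ∀ b ∈ R, a * b = b * a} {t r : G} :
    r ∈ invSub R hab t ↔ r ∈ R ∧ t * r * t⁻¹ = r⁻¹ := Iff.rfl

theorem invSub_le (R : Subgroup G) (hab : ∀ a ∈ R, ∀ b ∈ R, a * b = b * a) (t : G) :
    invSub R hab t ≤ R := fun _ hr => hr.1

/-- Factorization of a group as a product of two subgroups of coprime orders. -/
theorem exists_mul_of_coprime [Finite G] (N A B : Subgroup G) (hA : A ≤ N) (hB : B ≤ N)
    (hcard : Nat.card A * Nat.card B = Nat.card N) (hcop : (Nat.card A).Coprime (Nat.card B)) :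
    ∀ n ∈ N, ∃ a ∈ A, ∃ b ∈ B, n = a * b := by
  intro n hn
  have hA' : Nat.card (A.subgroupOf N) = Nat.card A :=
    Nat.card_congr (subgroupOfEquivOfLe hA).toEquiv
  have hB' : Nat.card (B.subgroupOf N) = Nat.card B :=
    Nat.card_congr (subgroupOfEquivOfLe hB).toEquiv
  have hc : IsComplement' (A.subgroupOf N) (B.subgroupOf N) :=
    isComplement'_of_coprime (by rw [hA', hB', hcard]) (by rw [hA', hB']; exact hcop)
  obtain ⟨x, hx, -⟩ := (isComplement_iff_existsUnique.mp hc) ⟨n, hn⟩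
  refine ⟨(x.1.1 : G), mem_subgroupOf.mp (SetLike.mem_coe.mp x.1.2), (x.2.1 : G),
    mem_subgroupOf.mp (SetLike.mem_coe.mp x.2.2), ?_⟩
  have := congrArg Subtype.val hx
  simpa using this.symm

end General

variable {G : Type*} [Group G] [Finite G] [IsSimpleGroup G]

/-- The square of an element of order `4` normalizing a Sylow `3`-subgroup inverts it. -/
theorem sq_inverts (hG : Nat.card G = 2520) (hno : ∀ H : Subgroup G, H.index ≠ 7)
    (R : Sylow 3 G) (u : G) (huN : u ∈ normalizer ((R : Subgroup G) : Set G))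
    (hu : orderOf u = 4) : ∀ r ∈ (R : Subgroup G), u ^ 2 * r * (u ^ 2)⁻¹ = r⁻¹ := by
  have hp3 : Fact (Nat.Prime 3) := ⟨by norm_num⟩
  have hR := card_sylow3_sub hG R
  have hcomm := sylow3_comm hG R
  have ht2 : orderOf (u ^ 2) = 2 := orderOf_sq_of_four u hu
  have htN : u ^ 2 ∈ normalizer ((R : Subgroup G) : Set G) := Subgroup.pow_mem _ huN 2
  obtain ⟨t, ht⟩ : ∃ t : G, t = u ^ 2 := ⟨_, rfl⟩
  rw [← ht] at ht2 htN ⊢
  have htt : t * t = 1 := by rw [← pow_two, ← ht2, pow_orderOf_eq_one]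
  have hconjR : ∀ r ∈ (R : Subgroup G), t * r * t⁻¹ ∈ (R : Subgroup G) :=
    fun r hr => (mem_normalizer_iff.mp htN r).mp hr
  have hIR : invSub (R : Subgroup G) hcomm t ≤ (R : Subgroup G) := invSub_le _ _ _
  have hdvd : Nat.card (invSub (R : Subgroup G) hcomm t) ∣ 9 := by
    rw [← hR]; exact Subgroup.card_dvd_of_le hIR
  have hcases : Nat.card (invSub (R : Subgroup G) hcomm t) = 1 ∨
      Nat.card (invSub (R : Subgroup G) hcomm t) = 3 ∨
      Nat.card (invSub (R : Subgroup G) hcomm t) = 9 := by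
    have hle : Nat.card (invSub (R : Subgroup G) hcomm t) ≤ 9 := Nat.le_of_dvd (by norm_num) hdvd
    have key : ∀ n < 10, n ∣ 9 → n = 1 ∨ n = 3 ∨ n = 9 := by decide
    exact key _ (by omega) hdvd
  rcases hcases with h1 | h3 | h9
  · exfalso
    apply not_comm_sylow3 hG hno R t ht2
    intro r hr
    have he : r * (t * r * t⁻¹)⁻¹ ∈ invSub (R : Subgroup G) hcomm t := by
      refine ⟨Subgroup.mul_mem _ hr (Subgroup.inv_mem _ (hconjR r hr)), ?_⟩
      calc t * (r * (t * r * t⁻¹)⁻¹) * t⁻¹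
          = (t * r * t⁻¹) * ((t * t) * r * (t * t)⁻¹)⁻¹ := by group
        _ = (t * r * t⁻¹) * r⁻¹ := by rw [htt]; group
        _ = (r * (t * r * t⁻¹)⁻¹)⁻¹ := by group
    have hbot := Subgroup.eq_bot_of_card_eq _ h1
    rw [hbot, Subgroup.mem_bot] at he
    have e2 : r = t * r * t⁻¹ := by
      calc r = (r * (t * r * t⁻¹)⁻¹) * (t * r * t⁻¹) := by group
        _ = t * r * t⁻¹ := by rw [he, one_mul]
    calc r * t = (t * r * t⁻¹) * t := by rw [← e2]
      _ = t * r := by group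
  · exfalso
    obtain ⟨e, heI, heo⟩ := exists_orderOf_mem (invSub (R : Subgroup G) hcomm t) 3 (by rw [h3])
    have he1 : e ≠ 1 := by intro h; rw [h, orderOf_one] at heo; omega
    have hz := zpowers_eq_of_mem_of_card_prime (by norm_num : Nat.Prime 3) _ h3 e heI he1
    have hue : u * e * u⁻¹ ∈ invSub (R : Subgroup G) hcomm t := by
      refine ⟨(mem_normalizer_iff.mp huN e).mp heI.1, ?_⟩
      calc t * (u * e * u⁻¹) * t⁻¹ = u * (t * e * t⁻¹) * u⁻¹ := by rw [ht]; group
        _ = u * e⁻¹ * u⁻¹ := by rw [heI.2]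
        _ = (u * e * u⁻¹)⁻¹ := by group
    rw [← hz] at hue
    exact no_sq_inv u e heo hue (by rw [← ht]; exact heI.2)
  · have hIeq : invSub (R : Subgroup G) hcomm t = (R : Subgroup G) :=
      Subgroup.eq_of_le_of_card_ge hIR (by rw [h9, hR])
    intro r hr
    have : r ∈ invSub (R : Subgroup G) hcomm t := by rw [hIeq]; exact hr
    exact this.2

/-- Every involution normalizing the Sylow `3`-subgroup `R` inverts it (given an element of
order `4` in the normalizer). -/
theorem inv_inverts (hG : Nat.card G = 2520) (hno : ∀ H : Subgroup G, H.index ≠ 7)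
    (R : Sylow 3 G) (u : G) (huN : u ∈ normalizer ((R : Subgroup G) : Set G))
    (hu : orderOf u = 4) (z : G) (hzN : z ∈ normalizer ((R : Subgroup G) : Set G))
    (hz : orderOf z = 2) : ∀ r ∈ (R : Subgroup G), z * r * z⁻¹ = r⁻¹ := by
  have hp2 : Fact (Nat.Prime 2) := ⟨Nat.prime_two⟩
  have hN := card_normalizer3 hG hno R
  have hT : zpowers u ≤ normalizer ((R : Subgroup G) : Set G) := zpowers_le.mpr huN
  obtain ⟨h, hhN, hh⟩ := sylow_sub_conj (p := 2) (normalizer ((R : Subgroup G) : Set G))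
    (zpowers u) hT 2 9 (by rw [Nat.card_zpowers, hu]; norm_num) (by rw [hN]; norm_num)
    (by norm_num) (zpowers z) (zpowers_le.mpr hzN)
    (IsPGroup.of_card (n := 1) (by rw [Nat.card_zpowers, hz]; norm_num))
  have h1 : h * z * h⁻¹ ∈ zpowers u := hh z (mem_zpowers z)
  have h2 : h * z * h⁻¹ = u ^ 2 := inv_mem_zpowers_four u _ hu h1 (by rw [orderOf_conj_eq, hz])
  have hinv := sq_inverts hG hno R u huN hu
  intro r hr
  have hr' : h * r * h⁻¹ ∈ (R : Subgroup G) := (mem_normalizer_iff.mp hhN r).mp hr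
  have h3 := hinv _ hr'
  rw [← h2] at h3
  calc z * r * z⁻¹ = h⁻¹ * (h * z * h⁻¹ * (h * r * h⁻¹) * (h * z * h⁻¹)⁻¹) * h := by group
    _ = h⁻¹ * (h * r * h⁻¹)⁻¹ * h := by rw [h3]
    _ = r⁻¹ := by group

/-- The normalizer of a Sylow `3`-subgroup contains an element of order `4`. -/
theorem exists_order_four_normalizer (hG : Nat.card G = 2520)
    (hno : ∀ H : Subgroup G, H.index ≠ 7) (R : Sylow 3 G) :
    ∃ u ∈ normalizer ((R : Subgroup G) : Set G), orderOf u = 4 := by
  have hp3 : Fact (Nat.Prime 3) := ⟨by norm_num⟩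
  have hp2 : Fact (Nat.Prime 2) := ⟨Nat.prime_two⟩
  have hR := card_sylow3_sub hG R
  have hN := card_normalizer3 hG hno R
  have hcomm := sylow3_comm hG R
  obtain ⟨D, hDN, hD⟩ := exists_subgroup_card_le (normalizer ((R : Subgroup G) : Set G)) 2 2
    (by rw [hN]; norm_num)
  have hD4 : Nat.card D = 4 := by rw [hD]; norm_num
  by_cases hexp : ∃ δ ∈ D, δ * δ ≠ 1
  · obtain ⟨δ, hδ, hδ2⟩ := hexp
    refine ⟨δ, hDN hδ, ?_⟩
    have h1 : orderOf δ ∣ 4 := by
      have := Subgroup.orderOf_dvd_natCard D hδ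
      rw [hD4] at this; exact this
    have h2 : orderOf δ ≤ 4 := Nat.le_of_dvd (by norm_num) h1
    have h3 : orderOf δ ≠ 1 := by
      intro h; rw [orderOf_eq_one_iff] at h; rw [h, one_mul] at hδ2; exact hδ2 rfl
    have h4 : orderOf δ ≠ 2 := by
      intro h
      apply hδ2
      rw [← pow_two, ← h, pow_orderOf_eq_one]
    have key : ∀ n < 5, n ∣ 4 → n = 1 ∨ n = 2 ∨ n = 4 := by decide
    rcases key _ (by omega) h1 with h | h | h
    · exact absurd h h3
    · exact absurd h h4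
    · exact h
  · exfalso
    have hexp' : ∀ δ ∈ D, δ * δ = 1 := by
      intro δ hδ
      by_contra h
      exact hexp ⟨δ, hδ, h⟩
    have hDcomm : ∀ x ∈ D, ∀ y ∈ D, x * y = y * x := by
      intro x hx y hy
      have h1 := hexp' (x * y) (D.mul_mem hx hy)
      have h2 := hexp' x hx
      have h3 := hexp' y hy
      calc x * y = (x * y)⁻¹ := (inv_eq_of_mul_eq_one_left h1).symm
        _ = y⁻¹ * x⁻¹ := mul_inv_rev x y
        _ = y * x := by rw [inv_eq_of_mul_eq_one_left h2, inv_eq_of_mul_eq_one_left h3]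
    have horder : ∀ δ ∈ D, δ ≠ 1 → orderOf δ = 2 := by
      intro δ hδ h1
      exact orderOf_eq_prime (by rw [pow_two]; exact hexp' δ hδ) h1
    have hDne : ∃ y1 ∈ D, y1 ≠ 1 := by
      by_contra hcon
      have : D = ⊥ := by
        rw [eq_bot_iff]
        intro x hx
        by_contra hx1
        exact hcon ⟨x, hx, fun h => hx1 (by rw [h]; exact Subgroup.mem_bot.mpr rfl)⟩
      rw [this, Subgroup.card_bot] at hD4
      omega
    obtain ⟨y1, hy1D, hy11⟩ := hDne
    have hthird : ∀ y ∈ D, y ≠ 1 → ∃ y2 ∈ D, y2 ≠ 1 ∧ y2 ≠ y := by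
      intro y hyD hy1
      by_contra hcon
      have hle : D ≤ zpowers y := by
        intro x hx
        by_cases hx1 : x = 1
        · rw [hx1]; exact one_mem _
        · by_cases hx2 : x = y
          · rw [hx2]; exact mem_zpowers y
          · exact absurd ⟨x, hx, hx1, hx2⟩ hcon
      have := Subgroup.card_le_of_le hle
      rw [hD4, Nat.card_zpowers, horder y hyD hy1] at this
      omega
    obtain ⟨y2, hy2D, hy21, hy2y1⟩ := hthird y1 hy1D hy11
    have hA : ∃ y ∈ D, y ≠ 1 ∧ ∃ r0 ∈ (R : Subgroup G), y * r0 * y⁻¹ ≠ r0⁻¹ := by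
      by_contra hcon
      have hinv : ∀ y ∈ D, y ≠ 1 → ∀ r ∈ (R : Subgroup G), y * r * y⁻¹ = r⁻¹ := by
        intro y hy hy1 r hr
        by_contra h
        exact hcon ⟨y, hy, hy1, r, hr, h⟩
      have h12 : y1 * y2 ≠ 1 := by
        intro h
        apply hy2y1
        calc y2 = y1⁻¹ := (inv_eq_of_mul_eq_one_right h).symm
          _ = y1 := inv_eq_of_mul_eq_one_left (hexp' y1 hy1D)
      apply not_comm_sylow3 hG hno R (y1 * y2) (horder _ (D.mul_mem hy1D hy2D) h12)
      intro r hr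
      have e1 := hinv y2 hy2D hy21 r hr
      have e2 := hinv y1 hy1D hy11 r⁻¹ (Subgroup.inv_mem _ hr)
      have e3 : y1 * y2 * r * (y1 * y2)⁻¹ = r := by
        calc y1 * y2 * r * (y1 * y2)⁻¹ = y1 * (y2 * r * y2⁻¹) * y1⁻¹ := by group
          _ = y1 * r⁻¹ * y1⁻¹ := by rw [e1]
          _ = r := by rw [e2, inv_inv]
      calc r * (y1 * y2) = (y1 * y2 * r * (y1 * y2)⁻¹) * (y1 * y2) := by rw [e3]
        _ = y1 * y2 * r := by group
    obtain ⟨y, hyD, hy1, r0, hr0, hr0ne⟩ := hA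
    have hyy := hexp' y hyD
    have hyinv : y⁻¹ = y := inv_eq_of_mul_eq_one_left hyy
    have hyo := horder y hyD hy1
    have hyN : y ∈ normalizer ((R : Subgroup G) : Set G) := hDN hyD
    have hyR : ∀ r ∈ (R : Subgroup G), y * r * y⁻¹ ∈ (R : Subgroup G) :=
      fun r hr => (mem_normalizer_iff.mp hyN r).mp hr
    obtain ⟨b, hb⟩ : ∃ b : G, b = r0 * (y * r0 * y⁻¹) := ⟨_, rfl⟩
    have hbR : b ∈ (R : Subgroup G) := by
      rw [hb]; exact Subgroup.mul_mem _ hr0 (hyR r0 hr0)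
    have hb1 : b ≠ 1 := by
      intro h
      apply hr0ne
      rw [hb] at h
      exact (inv_eq_of_mul_eq_one_right h).symm
    have hyb : y * b * y⁻¹ = b := by
      rw [hb]
      calc y * (r0 * (y * r0 * y⁻¹)) * y⁻¹
          = (y * r0 * y⁻¹) * ((y * y) * r0 * (y * y)⁻¹) := by group
        _ = (y * r0 * y⁻¹) * r0 := by rw [hyy]; group
        _ = r0 * (y * r0 * y⁻¹) := hcomm _ (hyR r0 hr0) _ hr0
    have hyb' : b * y = y * b := by
      calc b * y = (y * b * y⁻¹) * y := by rw [hyb]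
        _ = y * b := by group
    have hB : ∃ r1 ∈ (R : Subgroup G), y * r1 * y⁻¹ ≠ r1 := by
      by_contra hcon
      apply not_comm_sylow3 hG hno R y hyo
      intro r hr
      have : y * r * y⁻¹ = r := by
        by_contra h
        exact hcon ⟨r, hr, h⟩
      calc r * y = (y * r * y⁻¹) * y := by rw [this]
        _ = y * r := by group
    obtain ⟨r1, hr1, hr1ne⟩ := hB
    obtain ⟨e, he⟩ : ∃ e : G, e = r1 * (y * r1 * y⁻¹)⁻¹ := ⟨_, rfl⟩
    have heR : e ∈ (R : Subgroup G) := by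
      rw [he]; exact Subgroup.mul_mem _ hr1 (Subgroup.inv_mem _ (hyR r1 hr1))
    have he1 : e ≠ 1 := by
      intro h
      apply hr1ne
      rw [he] at h
      exact (mul_inv_eq_one.mp h).symm
    have hye : y * e * y⁻¹ = e⁻¹ := by
      rw [he]
      calc y * (r1 * (y * r1 * y⁻¹)⁻¹) * y⁻¹
          = (y * r1 * y⁻¹) * ((y * y) * r1 * (y * y)⁻¹)⁻¹ := by group
        _ = (y * r1 * y⁻¹) * r1⁻¹ := by rw [hyy]; group
        _ = (r1 * (y * r1 * y⁻¹)⁻¹)⁻¹ := by group
    have heI : e ∈ invSub (R : Subgroup G) hcomm y := ⟨heR, hye⟩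
    have hodd : ∀ r ∈ (R : Subgroup G), r * r = 1 → r = 1 := by
      intro r hr hrr
      have h1 : orderOf r ∣ 2 := orderOf_dvd_of_pow_eq_one (by rw [pow_two]; exact hrr)
      have h2 : orderOf r ∣ 9 := by rw [← hR]; exact Subgroup.orderOf_dvd_natCard _ hr
      have h3 : orderOf r ∣ Nat.gcd 2 9 := Nat.dvd_gcd h1 h2
      have h4 : orderOf r = 1 := by
        have : Nat.gcd 2 9 = 1 := by norm_num
        rw [this] at h3
        exact Nat.dvd_one.mp h3
      exact orderOf_eq_one_iff.mp h4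
    have hbI : b ∉ invSub (R : Subgroup G) hcomm y := by
      intro h
      apply hb1
      apply hodd b hbR
      have h2 : b = b⁻¹ := hyb.symm.trans h.2
      calc b * b = b⁻¹ * b := by rw [← h2]
        _ = 1 := inv_mul_cancel b
    have hIR : invSub (R : Subgroup G) hcomm y ≤ (R : Subgroup G) := invSub_le _ _ _
    have hI3 : Nat.card (invSub (R : Subgroup G) hcomm y) = 3 := by
      have hdvd : Nat.card (invSub (R : Subgroup G) hcomm y) ∣ 9 := by
        rw [← hR]; exact Subgroup.card_dvd_of_le hIR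
      have hle : Nat.card (invSub (R : Subgroup G) hcomm y) ≤ 9 :=
        Nat.le_of_dvd (by norm_num) hdvd
      have key : ∀ n < 10, n ∣ 9 → n = 1 ∨ n = 3 ∨ n = 9 := by decide
      rcases key _ (by omega) hdvd with h | h | h
      · exfalso
        have hbot := Subgroup.eq_bot_of_card_eq _ h
        have heI' := heI
        rw [hbot, Subgroup.mem_bot] at heI'
        exact he1 heI'
      · exact h
      · exfalso
        have hIeq : invSub (R : Subgroup G) hcomm y = (R : Subgroup G) :=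
          Subgroup.eq_of_le_of_card_ge hIR (by rw [h, hR])
        apply hbI
        rw [hIeq]; exact hbR
    have heo : orderOf e = 3 :=
      orderOf_eq_of_mem_of_card_prime (by norm_num : Nat.Prime 3) _ hI3 e heI he1
    have hzI := zpowers_eq_of_mem_of_card_prime (by norm_num : Nat.Prime 3) _ hI3 e heI he1
    obtain ⟨y0, hy0D, hy01, hy0y⟩ := hthird y hyD hy1
    have hnormI : ∀ δ ∈ D, δ * e * δ⁻¹ ∈ invSub (R : Subgroup G) hcomm y := by
      intro δ hδ
      have hδN := hDN hδ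
      refine ⟨(mem_normalizer_iff.mp hδN e).mp heR, ?_⟩
      have hc := hDcomm y hyD δ hδ
      calc y * (δ * e * δ⁻¹) * y⁻¹ = (y * δ) * e * (y * δ)⁻¹ := by group
        _ = (δ * y) * e * (δ * y)⁻¹ := by rw [hc]
        _ = δ * (y * e * y⁻¹) * δ⁻¹ := by group
        _ = δ * e⁻¹ * δ⁻¹ := by rw [hye]
        _ = (δ * e * δ⁻¹)⁻¹ := by group
    have hD5 : ∃ y' ∈ D, y' ≠ 1 ∧ y' * e = e * y' := by
      have h1 := hnormI y0 hy0D
      rw [← hzI] at h1
      have hne : y0 * e * y0⁻¹ ≠ 1 := by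
        intro h
        apply he1
        calc e = y0⁻¹ * (y0 * e * y0⁻¹) * y0 := by group
          _ = 1 := by rw [h]; group
      rcases mem_zpowers_three_cases e _ heo h1 hne with h | h
      · refine ⟨y0, hy0D, hy01, ?_⟩
        calc y0 * e = (y0 * e * y0⁻¹) * y0 := by group
          _ = e * y0 := by rw [h]
      · refine ⟨y * y0, D.mul_mem hyD hy0D, ?_, ?_⟩
        · intro h'
          apply hy0y
          calc y0 = y⁻¹ := (inv_eq_of_mul_eq_one_right h').symm
            _ = y := hyinv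
        · have : y * y0 * e * (y * y0)⁻¹ = e := by
            calc y * y0 * e * (y * y0)⁻¹ = y * (y0 * e * y0⁻¹) * y⁻¹ := by group
              _ = y * e⁻¹ * y⁻¹ := by rw [h]
              _ = (y * e * y⁻¹)⁻¹ := by group
              _ = e := by rw [hye, inv_inv]
          calc y * y0 * e = (y * y0 * e * (y * y0)⁻¹) * (y * y0) := by group
            _ = e * (y * y0) := by rw [this]
    obtain ⟨y', hy'D, hy'1, hy'e⟩ := hD5
    have hy'o := horder y' hy'D hy'1
    have hCy' : Nat.card (centralizer ({y'} : Set G)) = 24 := card_centralizer_inv hG hno y' hy'o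
    obtain ⟨g, hg⟩ := inv_conj hG hno y y' hyo hy'o
    have hb'C : g * b * g⁻¹ ∈ centralizer ({y'} : Set G) := by
      apply mem_centralizer_singleton_of_comm
      rw [← hg]
      calc g * b * g⁻¹ * (g * y * g⁻¹) = g * (b * y) * g⁻¹ := by group
        _ = g * (y * b) * g⁻¹ := by rw [hyb']
        _ = g * y * g⁻¹ * (g * b * g⁻¹) := by group
    have heC : e ∈ centralizer ({y'} : Set G) := mem_centralizer_singleton_of_comm hy'e.symm
    have hbpg : IsPGroup 3 (zpowers (g * b * g⁻¹)) := by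
      have hpgb : IsPGroup 3 (zpowers b) := R.isPGroup'.to_le (zpowers_le.mpr hbR)
      obtain ⟨k, hk⟩ := IsPGroup.iff_card.mp hpgb
      exact IsPGroup.of_card (n := k)
        (by rw [Nat.card_zpowers, orderOf_conj_eq, ← Nat.card_zpowers, hk])
    obtain ⟨h, hhC, hh⟩ := sylow_sub_conj (p := 3) (centralizer ({y'} : Set G)) (zpowers e)
      (zpowers_le.mpr heC) 1 8 (by rw [Nat.card_zpowers, heo]; norm_num) (by rw [hCy']; norm_num)
      (by norm_num) (zpowers (g * b * g⁻¹)) (zpowers_le.mpr hb'C) hbpg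
    have h1 : h * (g * b * g⁻¹) * h⁻¹ ∈ zpowers e := hh _ (mem_zpowers _)
    have hRcomm : IsMulCommutative (R : Subgroup G) :=
      ⟨⟨fun a b => Subtype.ext (hcomm a a.2 b b.2)⟩⟩
    have e1 : ((h * g)⁻¹)⁻¹ * b * (h * g)⁻¹ = h * (g * b * g⁻¹) * h⁻¹ := by group
    have h2 : ((h * g)⁻¹)⁻¹ * b * (h * g)⁻¹ ∈ (R : Subgroup G) := by
      rw [e1]
      have hle : zpowers e ≤ (R : Subgroup G) := zpowers_le.mpr heR
      exact hle h1
    obtain ⟨n, hn, hn2⟩ := Sylow.conj_eq_normalizer_conj_of_mem R b (h * g)⁻¹ hbR h2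
    rw [e1] at hn2
    obtain ⟨r, hr, δ, hδ, hnrδ⟩ := exists_mul_of_coprime (normalizer ((R : Subgroup G) : Set G))
      (R : Subgroup G) D le_normalizer hDN (by rw [hR, hD4, hN]) (by rw [hR, hD4]; norm_num) n hn
    have hconj_b : n⁻¹ * b * n = δ⁻¹ * b * δ := by
      rw [hnrδ]
      calc (r * δ)⁻¹ * b * (r * δ) = δ⁻¹ * (r⁻¹ * (b * r)) * δ := by group
        _ = δ⁻¹ * (r⁻¹ * (r * b)) * δ := by rw [hcomm b hbR r hr]
        _ = δ⁻¹ * b * δ := by group
    have hcy : y * (n⁻¹ * b * n) = (n⁻¹ * b * n) * y := by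
      rw [hconj_b]
      have hc := hDcomm y hyD δ⁻¹ (D.inv_mem hδ)
      have hc2 := hDcomm δ hδ y hyD
      calc y * (δ⁻¹ * b * δ) = (y * δ⁻¹) * b * δ := by group
        _ = (δ⁻¹ * y) * b * δ := by rw [hc]
        _ = δ⁻¹ * (y * b) * δ := by group
        _ = δ⁻¹ * (b * y) * δ := by rw [hyb']
        _ = δ⁻¹ * b * (y * δ) := by group
        _ = δ⁻¹ * b * (δ * y) := by rw [hc2]
        _ = δ⁻¹ * b * δ * y := by group
    rw [hn2, hzI] at h1
    have h3 : y * (n⁻¹ * b * n) * y⁻¹ = (n⁻¹ * b * n)⁻¹ := h1.2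
    have h4 : y * (n⁻¹ * b * n) * y⁻¹ = n⁻¹ * b * n := by
      rw [hcy]; group
    have h5 : (n⁻¹ * b * n) * (n⁻¹ * b * n) = 1 := by
      calc (n⁻¹ * b * n) * (n⁻¹ * b * n)
          = (n⁻¹ * b * n) * (y * (n⁻¹ * b * n) * y⁻¹) := by rw [h4]
        _ = (n⁻¹ * b * n) * (n⁻¹ * b * n)⁻¹ := by rw [h3]
        _ = 1 := mul_inv_cancel _
    have h6 := hodd _ h1.1 h5
    apply hb1
    calc b = n * (n⁻¹ * b * n) * n⁻¹ := by group
      _ = 1 := by rw [h6]; group

end Cfsg.Agent.Lib.Helper52.A7
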