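import Mathlib
import Cfsg.Agent.Lib.Helper52.A7.Loc3c

/-!
Simple groups of order `2520` without a subgroup of index `7`: centralizers of elements of
order `3`.
-/

set_option autoImplicit false

namespace Cfsg.Agent.Lib.Helper52.A7

open Subgroup
open Cfsg.Agent.Lib.Helper17
open Cfsg.Agent.Lib.Helper52.PG7920

variable {G : Type*} [Group G] [Finite G] [IsSimpleGroup G]

/-- For `x ≠ 1` in the Sylow `3`-subgroup `R`, `N(R) ∩ C(x) = R`. -/
theorem mem_sylow3_of_normalizer_comm (hG : Nat.card G = 2520)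
    (hno : ∀ H : Subgroup G, H.index ≠ 7) (R : Sylow 3 G) (x : G)
    (hxR : x ∈ (R : Subgroup G)) (hx1 : x ≠ 1) (g : G)
    (hgN : g ∈ normalizer ((R : Subgroup G) : Set G)) (hgx : g * x = x * g) :
    g ∈ (R : Subgroup G) := by
  have hp3 : Fact (Nat.Prime 3) := ⟨by norm_num⟩
  have hp2 : Fact (Nat.Prime 2) := ⟨Nat.prime_two⟩
  have hR := card_sylow3_sub hG R
  have hN := card_normalizer3 hG hno R
  have hcomm := sylow3_comm hG R
  obtain ⟨u, huN, hu⟩ := exists_order_four_normalizer hG hno R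
  have hRM : (R : Subgroup G) ≤
      normalizer ((R : Subgroup G) : Set G) ⊓ centralizer ({x} : Set G) := by
    intro r hr
    exact ⟨le_normalizer hr, mem_centralizer_singleton_of_comm (hcomm r hr x hxR)⟩
  have h9 : 9 ∣ Nat.card (normalizer ((R : Subgroup G) : Set G) ⊓ centralizer ({x} : Set G) :
      Subgroup G) := by
    rw [← hR]; exact Subgroup.card_dvd_of_le hRM
  have h36 : Nat.card (normalizer ((R : Subgroup G) : Set G) ⊓ centralizer ({x} : Set G) :
      Subgroup G) ∣ 36 := by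
    rw [← hN]; exact Subgroup.card_dvd_of_le inf_le_left
  have hodd : ¬ 2 ∣ Nat.card (normalizer ((R : Subgroup G) : Set G) ⊓
      centralizer ({x} : Set G) : Subgroup G) := by
    intro h2
    obtain ⟨z, hzM, hzo⟩ := exists_orderOf_mem _ 2 h2
    have h1 := inv_inverts hG hno R u huN hu z hzM.1 hzo x hxR
    have h2' := comm_of_mem_centralizer_singleton hzM.2
    have h3 : x = x⁻¹ := by
      calc x = x * z * z⁻¹ := by group
        _ = z * x * z⁻¹ := by rw [h2']
        _ = x⁻¹ := h1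
    have hxx : x * x = 1 := by
      calc x * x = x⁻¹ * x := by rw [← h3]
        _ = 1 := inv_mul_cancel x
    have h4 : orderOf x ∣ 2 := orderOf_dvd_of_pow_eq_one (by rw [pow_two]; exact hxx)
    have h5 : orderOf x ∣ 9 := by rw [← hR]; exact Subgroup.orderOf_dvd_natCard _ hxR
    have h6 : orderOf x ∣ Nat.gcd 2 9 := Nat.dvd_gcd h4 h5
    have : Nat.gcd 2 9 = 1 := by norm_num
    rw [this] at h6
    exact hx1 (orderOf_eq_one_iff.mp (Nat.dvd_one.mp h6))
  have hM9 : Nat.card (normalizer ((R : Subgroup G) : Set G) ⊓ centralizer ({x} : Set G) :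
      Subgroup G) = 9 := by
    have hle : Nat.card (normalizer ((R : Subgroup G) : Set G) ⊓ centralizer ({x} : Set G) :
      Subgroup G) ≤ 36 := Nat.le_of_dvd (by norm_num) h36
    have key : ∀ n < 37, (9 ∣ n ∧ n ∣ 36 ∧ ¬ 2 ∣ n) → n = 9 := by decide
    exact key _ (by omega) ⟨h9, h36, hodd⟩
  have hEq : (R : Subgroup G) =
      normalizer ((R : Subgroup G) : Set G) ⊓ centralizer ({x} : Set G) :=
    Subgroup.eq_of_le_of_card_ge hRM (by rw [hM9, hR])
  rw [hEq]
  exact ⟨hgN, mem_centralizer_singleton_of_comm hgx⟩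

/-- The centralizer of an element `x` of order `3` has order `9`, or it has order `36` and a
normal four-group `V` on which the elements of order `3` outside `⟨x⟩` act fixed point freely. -/
theorem cent3_cases (hG : Nat.card G = 2520) (hno : ∀ H : Subgroup G, H.index ≠ 7) (x : G)
    (hx : orderOf x = 3) :
    Nat.card (centralizer ({x} : Set G)) = 9 ∨
    (Nat.card (centralizer ({x} : Set G)) = 36 ∧
      ∃ V : Subgroup G, V ≤ centralizer ({x} : Set G) ∧
        centralizer ({x} : Set G) ≤ normalizer (V : Set G) ∧ Nat.card V = 4 ∧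
        (∀ g ∈ centralizer ({x} : Set G), (orderOf g).Coprime 3 → g ∈ V) ∧
        (∀ v ∈ V, v * v = 1) ∧
        (∀ y ∈ centralizer ({x} : Set G), orderOf y = 3 → y ∉ zpowers x →
          ∀ v ∈ V, y * v = v * y → v = 1)) := by
  have hp3 : Fact (Nat.Prime 3) := ⟨by norm_num⟩
  have hp2 : Fact (Nat.Prime 2) := ⟨Nat.prime_two⟩
  have hpg : IsPGroup 3 (zpowers x) :=
    IsPGroup.of_card (n := 1) (by rw [Nat.card_zpowers, hx]; norm_num)
  obtain ⟨R, hRle⟩ := hpg.exists_le_sylow
  have hxR : x ∈ (R : Subgroup G) := hRle (mem_zpowers x)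
  have hx1 : x ≠ 1 := by intro h; rw [h, orderOf_one] at hx; omega
  have hR := card_sylow3_sub hG R
  have hcomm := sylow3_comm hG R
  have hRC : (R : Subgroup G) ≤ centralizer ({x} : Set G) :=
    fun r hr => mem_centralizer_singleton_of_comm (hcomm r hr x hxR)
  have h9 : 9 ∣ Nat.card (centralizer ({x} : Set G)) := by
    rw [← hR]; exact Subgroup.card_dvd_of_le hRC
  have h5 := not_five_dvd_centralizer hG hno x (by rw [hx]; norm_num) (by rw [hx]; norm_num)
  have h7 := not_seven_dvd_centralizer hG x (by rw [hx]; norm_num) (by rw [hx]; norm_num)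
  have hdvd := card_dvd_2520 hG (centralizer ({x} : Set G))
  obtain ⟨m, hm⟩ := h9
  have hmcases : m = 1 ∨ m = 2 ∨ m = 4 ∨ m = 8 := by
    rw [hm] at hdvd h5 h7
    have hm280 : m ∣ 280 := by
      have : 9 * m ∣ 9 * 280 := by
        have e : 9 * 280 = 2520 := by norm_num
        rw [e]; exact hdvd
      exact Nat.dvd_of_mul_dvd_mul_left (by norm_num) this
    have h5' : ¬ 5 ∣ m := fun h => h5 (Dvd.dvd.mul_left h 9)
    have h7' : ¬ 7 ∣ m := fun h => h7 (Dvd.dvd.mul_left h 9)
    have hm8 : m ∣ 8 := by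
      have hc5 : Nat.Coprime m 5 :=
        ((Nat.Prime.coprime_iff_not_dvd (by norm_num : Nat.Prime 5)).mpr h5').symm
      have hc7 : Nat.Coprime m 7 :=
        ((Nat.Prime.coprime_iff_not_dvd (by norm_num : Nat.Prime 7)).mpr h7').symm
      have hc35 : Nat.Coprime m (5 * 7) := Nat.Coprime.mul_right hc5 hc7
      have h' : m ∣ 8 * (5 * 7) := by
        have e : 8 * (5 * 7) = 280 := by norm_num
        rw [e]; exact hm280
      exact hc35.dvd_of_dvd_mul_right h'
    have hle : m ≤ 8 := Nat.le_of_dvd (by norm_num) hm8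
    have key : ∀ n < 9, n ∣ 8 → n = 1 ∨ n = 2 ∨ n = 4 ∨ n = 8 := by decide
    exact key _ (by omega) hm8
  have hm3 : ¬ 3 ∣ m := by rcases hmcases with h | h | h | h <;> rw [h] <;> norm_num
  have hNC : centralizer ({x} : Set G) ⊓ normalizer ((R : Subgroup G) : Set G) ≤
      centralizer ((R : Subgroup G) : Set G) := by
    intro g hg
    have hgR := mem_sylow3_of_normalizer_comm hG hno R x hxR hx1 g hg.2
      (comm_of_mem_centralizer_singleton hg.1)
    rw [mem_centralizer_iff]
    intro r hr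
    exact hcomm r hr g hgR
  obtain ⟨K, hKC, hCK, hKcard, hK3'⟩ := burnside_sub (p := 3) (centralizer ({x} : Set G))
    (R : Subgroup G) hRC 2 m (by rw [hR]; norm_num) (by rw [hm]; norm_num) hm3 hNC
  have hconjK : ∀ r ∈ (R : Subgroup G), ∀ k ∈ K, r * k * r⁻¹ ∈ K := by
    intro r hr k hk
    exact (mem_normalizer_iff.mp (hCK (hRC hr)) k).mp hk
  rcases hmcases with h | h | h | h
  · left; rw [hm, h]
  · exfalso
    rw [h] at hKcard
    obtain ⟨z, hzK, hzo⟩ := exists_orderOf_mem K 2 (by rw [hKcard])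
    apply not_comm_sylow3 hG hno R z hzo
    intro r hr
    have h1 : r * z * r⁻¹ ∈ K := hconjK r hr z hzK
    have h2 : orderOf (r * z * r⁻¹) = 2 := by rw [orderOf_conj_eq, hzo]
    have h3 : z = r * z * r⁻¹ := unique_inv_aux (A := ⊥) (C := K) bot_le 1 (by norm_num)
      Subgroup.card_bot (by rw [hKcard])
      (by intro a ha c _; rw [Subgroup.mem_bot] at ha; rw [ha, one_mul, mul_one])
      z (r * z * r⁻¹) hzK h1 hzo h2
    calc r * z = (r * z * r⁻¹) * r := by group
      _ = z * r := by rw [← h3]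
  · right
    rw [h] at hKcard hm
    have hC36 : Nat.card (centralizer ({x} : Set G)) = 36 := by rw [hm]
    have hexp : ∀ v ∈ K, v * v = 1 := by
      intro v hv
      by_contra hvv
      have h1 : orderOf v ∣ 4 := by
        have := Subgroup.orderOf_dvd_natCard K hv
        rw [hKcard] at this; exact this
      have h3 : orderOf v ≠ 1 := by
        intro h'; rw [orderOf_eq_one_iff] at h'; rw [h', one_mul] at hvv; exact hvv rfl
      have h4 : orderOf v ≠ 2 := by
        intro h'
        apply hvv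
        rw [← pow_two, ← h', pow_orderOf_eq_one]
      have h2 : orderOf v ≤ 4 := Nat.le_of_dvd (by norm_num) h1
      have key : ∀ n < 5, n ∣ 4 → n = 1 ∨ n = 2 ∨ n = 4 := by decide
      have hv4 : orderOf v = 4 := by
        rcases key _ (by omega) h1 with h' | h' | h'
        · exact absurd h' h3
        · exact absurd h' h4
        · exact h'
      have hKz : zpowers v = K := Subgroup.eq_of_le_of_card_ge (zpowers_le.mpr hv)
        (by rw [hKcard, Nat.card_zpowers, hv4])
      have hso : orderOf (v ^ 2) = 2 := orderOf_sq_of_four v hv4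
      apply not_comm_sylow3 hG hno R (v ^ 2) hso
      intro r hr
      have h5 : r * v ^ 2 * r⁻¹ ∈ zpowers v := by
        rw [hKz]; exact hconjK r hr _ (K.pow_mem hv 2)
      have h6 := inv_mem_zpowers_four v _ hv4 h5 (by rw [orderOf_conj_eq, hso])
      calc r * v ^ 2 = (r * v ^ 2 * r⁻¹) * r := by group
        _ = v ^ 2 * r := by rw [h6]
    refine ⟨hC36, K, hKC, hCK, hKcard, hK3', hexp, ?_⟩
    intro y hyC hyo hyx v hvK hyv
    by_contra hv1
    have hvo : orderOf v = 2 := orderOf_eq_prime (by rw [pow_two]; exact hexp v hvK) hv1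
    obtain ⟨h0, hh0C, hh0⟩ := sylow_sub_conj (p := 3) (centralizer ({x} : Set G))
      (R : Subgroup G) hRC 2 4 (by rw [hR]; norm_num) (by rw [hC36]; norm_num) (by norm_num)
      (zpowers y) (zpowers_le.mpr hyC)
      (IsPGroup.of_card (n := 1) (by rw [Nat.card_zpowers, hyo]; norm_num))
    have hy'R : h0 * y * h0⁻¹ ∈ (R : Subgroup G) := hh0 y (mem_zpowers y)
    have hv'K : h0 * v * h0⁻¹ ∈ K := (mem_normalizer_iff.mp (hCK hh0C) v).mp hvK
    have hv'o : orderOf (h0 * v * h0⁻¹) = 2 := by rw [orderOf_conj_eq, hvo]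
    have hh0x : h0 * x = x * h0 := comm_of_mem_centralizer_singleton hh0C
    have hy'x : h0 * y * h0⁻¹ ∉ zpowers x := by
      intro hmem
      apply hyx
      obtain ⟨k, hk⟩ := mem_zpowers_iff.mp hmem
      have hck : h0 * x ^ k = x ^ k * h0 := (show Commute h0 x from hh0x).zpow_right k
      have : y = x ^ k := by
        calc y = h0⁻¹ * (h0 * y * h0⁻¹) * h0 := by group
          _ = h0⁻¹ * x ^ k * h0 := by rw [hk]
          _ = h0⁻¹ * (x ^ k * h0) := by group
          _ = h0⁻¹ * (h0 * x ^ k) := by rw [hck]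
          _ = x ^ k := by group
      rw [this]; exact zpow_mem (mem_zpowers x) k
    have hv'y' : (h0 * y * h0⁻¹) * (h0 * v * h0⁻¹) = (h0 * v * h0⁻¹) * (h0 * y * h0⁻¹) := by
      calc (h0 * y * h0⁻¹) * (h0 * v * h0⁻¹) = h0 * (y * v) * h0⁻¹ := by group
        _ = h0 * (v * y) * h0⁻¹ := by rw [hyv]
        _ = (h0 * v * h0⁻¹) * (h0 * y * h0⁻¹) := by group
    have hv'x : x * (h0 * v * h0⁻¹) = (h0 * v * h0⁻¹) * x :=
      (comm_of_mem_centralizer_singleton (hKC hv'K)).symm
    have hxM : x ∈ (R : Subgroup G) ⊓ centralizer ({h0 * v * h0⁻¹} : Set G) :=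
      ⟨hxR, mem_centralizer_singleton_of_comm hv'x⟩
    have hy'M : h0 * y * h0⁻¹ ∈ (R : Subgroup G) ⊓ centralizer ({h0 * v * h0⁻¹} : Set G) :=
      ⟨hy'R, mem_centralizer_singleton_of_comm hv'y'⟩
    have hMR : (R : Subgroup G) ⊓ centralizer ({h0 * v * h0⁻¹} : Set G) ≤ (R : Subgroup G) :=
      inf_le_left
    have hMdvd : Nat.card ((R : Subgroup G) ⊓ centralizer ({h0 * v * h0⁻¹} : Set G) :
        Subgroup G) ∣ 9 := by
      rw [← hR]; exact Subgroup.card_dvd_of_le hMR
    have hzM : zpowers x ≤ (R : Subgroup G) ⊓ centralizer ({h0 * v * h0⁻¹} : Set G) :=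
      zpowers_le.mpr hxM
    have h3M : 3 ≤ Nat.card ((R : Subgroup G) ⊓ centralizer ({h0 * v * h0⁻¹} : Set G) :
        Subgroup G) := by
      have := Subgroup.card_le_of_le hzM
      rw [Nat.card_zpowers, hx] at this; exact this
    have hM9 : Nat.card ((R : Subgroup G) ⊓ centralizer ({h0 * v * h0⁻¹} : Set G) :
        Subgroup G) = 9 := by
      have hle : Nat.card ((R : Subgroup G) ⊓ centralizer ({h0 * v * h0⁻¹} : Set G) :
        Subgroup G) ≤ 9 := Nat.le_of_dvd (by norm_num) hMdvd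
      have key : ∀ n < 10, n ∣ 9 → n = 1 ∨ n = 3 ∨ n = 9 := by decide
      rcases key _ (by omega) hMdvd with h' | h' | h'
      · omega
      · exfalso
        have : zpowers x = (R : Subgroup G) ⊓ centralizer ({h0 * v * h0⁻¹} : Set G) :=
          Subgroup.eq_of_le_of_card_ge hzM (by rw [h', Nat.card_zpowers, hx])
        exact hy'x (this ▸ hy'M)
      · exact h'
    have hMeq : (R : Subgroup G) ⊓ centralizer ({h0 * v * h0⁻¹} : Set G) = (R : Subgroup G) :=
      Subgroup.eq_of_le_of_card_ge hMR (by rw [hM9, hR])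
    apply not_comm_sylow3 hG hno R (h0 * v * h0⁻¹) hv'o
    intro r hr
    have : r ∈ (R : Subgroup G) ⊓ centralizer ({h0 * v * h0⁻¹} : Set G) := by
      rw [hMeq]; exact hr
    exact comm_of_mem_centralizer_singleton this.2
  · exfalso
    rw [h] at hKcard
    obtain ⟨u0, hu0⟩ := exists_order_four hG hno
    obtain ⟨S2, hS2⟩ := exists_sylow_eq (p := 2) K 3 315 (by rw [hKcard]; norm_num)
      (by rw [hG]; norm_num) (by norm_num)
    obtain ⟨g, hg⟩ := exists_conj_mem_sylow_of_orderOf_pow S2 u0 2 (by rw [hu0]; norm_num)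
    rw [hS2] at hg
    have hu'4 : orderOf (g * u0 * g⁻¹) = 4 := by rw [orderOf_conj_eq, hu0]
    have hso : orderOf ((g * u0 * g⁻¹) ^ 2) = 2 := orderOf_sq_of_four _ hu'4
    apply not_comm_sylow3 hG hno R ((g * u0 * g⁻¹) ^ 2) hso
    intro r hr
    have h1 : r * (g * u0 * g⁻¹) * r⁻¹ ∈ K := hconjK r hr _ hg
    have h2 : orderOf (r * (g * u0 * g⁻¹) * r⁻¹) = 4 := by rw [orderOf_conj_eq, hu'4]
    have h3 := sq_eq_of_card_eight K hKcard (g * u0 * g⁻¹) (r * (g * u0 * g⁻¹) * r⁻¹)
      hg h1 hu'4 h2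
    obtain ⟨u', hu'⟩ : ∃ u' : G, u' = g * u0 * g⁻¹ := ⟨_, rfl⟩
    rw [← hu'] at h3 ⊢
    calc r * u' ^ 2 = (r * u' * r⁻¹) ^ 2 * r := by rw [pow_two, pow_two]; group
      _ = u' ^ 2 * r := by rw [h3]

/-- If the involution `z` commutes with the element `a` of order `3`, then `C(z)` normalizes
`⟨a⟩`. -/
theorem conj_mem_zpowers_of_comm_inv (hG : Nat.card G = 2520)
    (hno : ∀ H : Subgroup G, H.index ≠ 7) (z a : G) (hz : orderOf z = 2) (ha : orderOf a = 3)
    (hza : z * a = a * z) : ∀ g ∈ centralizer ({z} : Set G), g * a * g⁻¹ ∈ zpowers a := by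
  have hp3 : Fact (Nat.Prime 3) := ⟨by norm_num⟩
  have hp2 : Fact (Nat.Prime 2) := ⟨Nat.prime_two⟩
  have hzC : z ∈ centralizer ({a} : Set G) := mem_centralizer_singleton_of_comm hza
  rcases cent3_cases hG hno a ha with h9 | ⟨h36, V, hVC, hCV, hV4, hV3', hVexp, -⟩
  · exfalso
    have := Subgroup.orderOf_dvd_natCard _ hzC
    rw [hz, h9] at this
    omega
  have hzV : z ∈ V := hV3' z hzC (by rw [hz]; norm_num)
  have hVz : V ≤ centralizer ({z} : Set G) := by
    intro v hv
    apply mem_centralizer_singleton_of_comm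
    have h1 := hVexp (v * z) (V.mul_mem hv hzV)
    have h2 := hVexp v hv
    have h3 := hVexp z hzV
    calc v * z = (v * z)⁻¹ := (inv_eq_of_mul_eq_one_left h1).symm
      _ = z⁻¹ * v⁻¹ := mul_inv_rev v z
      _ = z * v := by rw [inv_eq_of_mul_eq_one_left h2, inv_eq_of_mul_eq_one_left h3]
  have h24 := card_centralizer_inv hG hno z hz
  have haCz : a ∈ centralizer ({z} : Set G) := mem_centralizer_singleton_of_comm hza.symm
  obtain ⟨n, hn3, hn⟩ := sylow_sub_count (p := 3) (centralizer ({z} : Set G)) (zpowers a)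
    (zpowers_le.mpr haCz) 1 8 (by rw [Nat.card_zpowers, ha]; norm_num) (by rw [h24]; norm_num)
    (by norm_num)
  have hVM : V ≤ centralizer ({z} : Set G) ⊓ normalizer ((zpowers a : Subgroup G) : Set G) :=
    fun v hv => ⟨hVz hv, centralizer_le_normalizer_zpowers a (hVC hv)⟩
  have haM : zpowers a ≤
      centralizer ({z} : Set G) ⊓ normalizer ((zpowers a : Subgroup G) : Set G) :=
    fun q hq => ⟨(zpowers_le.mpr haCz) hq, le_normalizer hq⟩
  have h4 : 4 ∣ Nat.card (centralizer ({z} : Set G) ⊓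
      normalizer ((zpowers a : Subgroup G) : Set G) : Subgroup G) := by
    rw [← hV4]; exact Subgroup.card_dvd_of_le hVM
  have h3 : 3 ∣ Nat.card (centralizer ({z} : Set G) ⊓
      normalizer ((zpowers a : Subgroup G) : Set G) : Subgroup G) := by
    have := Subgroup.card_dvd_of_le haM
    rw [Nat.card_zpowers, ha] at this; exact this
  rw [h24] at hn
  have hM24 : Nat.card (centralizer ({z} : Set G) ⊓
      normalizer ((zpowers a : Subgroup G) : Set G) : Subgroup G) = 24 := by
    have hMle : Nat.card (centralizer ({z} : Set G) ⊓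
      normalizer ((zpowers a : Subgroup G) : Set G) : Subgroup G) ∣ 24 := Dvd.intro_left n hn
    have hle : Nat.card (centralizer ({z} : Set G) ⊓
      normalizer ((zpowers a : Subgroup G) : Set G) : Subgroup G) ≤ 24 :=
      Nat.le_of_dvd (by norm_num) hMle
    have key : ∀ k < 25, (4 ∣ k ∧ 3 ∣ k ∧ k ∣ 24) → k = 12 ∨ k = 24 := by decide
    rcases key _ (by omega) ⟨h4, h3, hMle⟩ with h' | h'
    · exfalso
      rw [h'] at hn
      omega
    · exact h'
  have hMeq : centralizer ({z} : Set G) ⊓ normalizer ((zpowers a : Subgroup G) : Set G) =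
      centralizer ({z} : Set G) :=
    Subgroup.eq_of_le_of_card_ge inf_le_left (by rw [hM24, h24])
  intro g hg
  have hgM : g ∈ centralizer ({z} : Set G) ⊓ normalizer ((zpowers a : Subgroup G) : Set G) := by
    rw [hMeq]; exact hg
  exact (mem_normalizer_iff.mp hgM.2 a).mp (mem_zpowers a)

end Cfsg.Agent.Lib.Helper52.A7
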