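import Mathlib
import Cfsg.Agent.Lib.Helper52.A7.Loc3d

/-!
Simple groups of order `2520` without a subgroup of index `7`: generators `a`, `u`, `w` of a
subgroup, with the relations needed to bound its order.
-/

set_option autoImplicit false

namespace Cfsg.Agent.Lib.Helper52.A7

open Subgroup
open Cfsg.Agent.Lib.Helper17
open Cfsg.Agent.Lib.Helper52.PG7920

variable {G : Type*} [Group G] [Finite G] [IsSimpleGroup G]

set_option maxHeartbeats 800000 in
theorem exists_rel (hG : Nat.card G = 2520) (hno : ∀ H : Subgroup G, H.index ≠ 7) :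
    ∃ (R : Sylow 3 G) (a u w : G), a ∈ (R : Subgroup G) ∧ orderOf a = 3 ∧
      u ∈ normalizer ((R : Subgroup G) : Set G) ∧ orderOf u = 4 ∧
      u ^ 2 * a * (u ^ 2)⁻¹ = a⁻¹ ∧ w * w = 1 ∧ w * u * w⁻¹ = u⁻¹ ∧ (w * a) ^ 3 = 1 := by
  have hp3 : Fact (Nat.Prime 3) := ⟨by norm_num⟩
  have hp2 : Fact (Nat.Prime 2) := ⟨Nat.prime_two⟩
  obtain ⟨R⟩ : Nonempty (Sylow 3 G) := inferInstance
  have hR := card_sylow3_sub hG R
  have hcomm := sylow3_comm hG R
  obtain ⟨u, huN, hu⟩ := exists_order_four_normalizer hG hno R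
  have hinv := sq_inverts hG hno R u huN hu
  have hto : orderOf (u ^ 2) = 2 := orderOf_sq_of_four u hu
  have hu4 : u ^ 4 = 1 := by rw [← hu]; exact pow_orderOf_eq_one u
  obtain ⟨t, ht⟩ : ∃ t : G, t = u ^ 2 := ⟨_, rfl⟩
  rw [← ht] at hinv hto
  have htt : t * t = 1 := by rw [← pow_two, ← hto, pow_orderOf_eq_one]
  have htinv : t⁻¹ = t := inv_eq_of_mul_eq_one_left htt
  have htu : t * u = u * t := by rw [ht, pow_two]; group
  have h24 := card_centralizer_inv hG hno t hto
  obtain ⟨d, hdC, hdo⟩ := exists_orderOf_mem (centralizer ({t} : Set G)) 3 (by rw [h24]; norm_num)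
  have hdt : d * t = t * d := comm_of_mem_centralizer_singleton hdC
  have htd : t * d = d * t := hdt.symm
  have hd1 : d ≠ 1 := by intro h; rw [h, orderOf_one] at hdo; omega
  have htCd : t ∈ centralizer ({d} : Set G) := mem_centralizer_singleton_of_comm htd
  rcases cent3_cases hG hno d hdo with h9 | ⟨hd36, Vd, hVdC, hCVd, hVd4, hVd3', hVdexp, -⟩
  · exfalso
    have := Subgroup.orderOf_dvd_natCard _ htCd
    rw [hto, h9] at this
    omega
  obtain ⟨g, hg⟩ := exists_conj_mem_sylow_of_orderOf_pow R d 1 (by rw [hdo]; norm_num)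
  obtain ⟨a, ha⟩ : ∃ a : G, a = g * d * g⁻¹ := ⟨_, rfl⟩
  rw [← ha] at hg
  have hao : orderOf a = 3 := by rw [ha, orderOf_conj_eq, hdo]
  have ha1 : a ≠ 1 := by intro h; rw [h, orderOf_one] at hao; omega
  have hta : t * a * t⁻¹ = a⁻¹ := hinv a hg
  have hCa36 : Nat.card (centralizer ({a} : Set G)) = 36 := by
    rw [ha, card_centralizer_conj, hd36]
  rcases cent3_cases hG hno a hao with h9 | ⟨-, V, hVC, hCV, hV4, hV3', hVexp, hVfpf⟩
  · rw [hCa36] at h9; omega
  have hVcomm : ∀ x ∈ V, ∀ y ∈ V, x * y = y * x := by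
    intro x hx y hy
    have h1 := hVexp (x * y) (V.mul_mem hx hy)
    have h2 := hVexp x hx
    have h3 := hVexp y hy
    calc x * y = (x * y)⁻¹ := (inv_eq_of_mul_eq_one_left h1).symm
      _ = y⁻¹ * x⁻¹ := mul_inv_rev x y
      _ = y * x := by rw [inv_eq_of_mul_eq_one_left h2, inv_eq_of_mul_eq_one_left h3]
  have htV : ∀ v ∈ V, t * v * t⁻¹ ∈ V := by
    intro v hv
    apply hV3'
    · apply mem_centralizer_singleton_of_comm
      have hva : v * a = a * v := comm_of_mem_centralizer_singleton (hVC hv)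
      have hva' : v * a⁻¹ = a⁻¹ * v := by
        calc v * a⁻¹ = a⁻¹ * (a * v) * a⁻¹ := by group
          _ = a⁻¹ * (v * a) * a⁻¹ := by rw [hva]
          _ = a⁻¹ * v := by group
      have e1 : t⁻¹ * a * t = a⁻¹ := by
        calc t⁻¹ * a * t = t * a * t⁻¹ := by rw [htinv]
          _ = a⁻¹ := hta
      calc t * v * t⁻¹ * a = t * (v * (t⁻¹ * a * t)) * t⁻¹ := by group
        _ = t * (v * a⁻¹) * t⁻¹ := by rw [e1]
        _ = t * (a⁻¹ * v) * t⁻¹ := by rw [hva']
        _ = (t * a * t⁻¹)⁻¹ * (t * v * t⁻¹) := by group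
        _ = a * (t * v * t⁻¹) := by rw [hta, inv_inv]
    · rw [orderOf_conj_eq]
      have hvo : orderOf v ∣ 2 := orderOf_dvd_of_pow_eq_one (by rw [pow_two]; exact hVexp v hv)
      exact Nat.Coprime.coprime_dvd_left hvo (by norm_num)
  have hVne : ∃ v ∈ V, v ≠ 1 := by
    by_contra hcon
    have : V = ⊥ := by
      rw [eq_bot_iff]
      intro x hx
      by_contra hx1
      exact hcon ⟨x, hx, fun h => hx1 (by rw [h]; exact Subgroup.mem_bot.mpr rfl)⟩
    rw [this, Subgroup.card_bot] at hV4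
    omega
  obtain ⟨v, hvV, hv1⟩ := hVne
  have hv0 : ∃ v0 ∈ V, v0 ≠ 1 ∧ t * v0 = v0 * t := by
    by_cases hc : t * v * t⁻¹ = v
    · refine ⟨v, hvV, hv1, ?_⟩
      calc t * v = (t * v * t⁻¹) * t := by group
        _ = v * t := by rw [hc]
    · refine ⟨v * (t * v * t⁻¹), V.mul_mem hvV (htV v hvV), ?_, ?_⟩
      · intro h
        apply hc
        calc t * v * t⁻¹ = v⁻¹ := (inv_eq_of_mul_eq_one_right h).symm
          _ = v := inv_eq_of_mul_eq_one_left (hVexp v hvV)
      · have e : t * (v * (t * v * t⁻¹)) * t⁻¹ = v * (t * v * t⁻¹) := by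
          calc t * (v * (t * v * t⁻¹)) * t⁻¹
              = (t * v * t⁻¹) * ((t * t) * v * (t * t)⁻¹) := by group
            _ = (t * v * t⁻¹) * v := by rw [htt]; group
            _ = v * (t * v * t⁻¹) := hVcomm _ (htV v hvV) _ hvV
        calc t * (v * (t * v * t⁻¹)) = (t * (v * (t * v * t⁻¹)) * t⁻¹) * t := by group
          _ = v * (t * v * t⁻¹) * t := by rw [e]
  obtain ⟨v0, hv0V, hv01, htv0⟩ := hv0
  have hv0v0 := hVexp v0 hv0V
  have hv0o : orderOf v0 = 2 := orderOf_eq_prime (by rw [pow_two]; exact hv0v0) hv01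
  have hv0a : v0 * a = a * v0 := comm_of_mem_centralizer_singleton (hVC hv0V)
  have hv0inv : v0⁻¹ = v0 := inv_eq_of_mul_eq_one_left hv0v0
  obtain ⟨β, hβ⟩ : ∃ β : G, β = u⁻¹ * a * u := ⟨_, rfl⟩
  have hβR : β ∈ (R : Subgroup G) := by
    rw [hβ]
    have := (mem_normalizer_iff.mp (Subgroup.inv_mem _ huN) a).mp hg
    simpa using this
  have hβo : orderOf β = 3 := by
    have := orderOf_conj_eq u⁻¹ a
    rw [inv_inv] at this
    rw [hβ, this, hao]
  have hβC : β ∈ centralizer ({a} : Set G) :=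
    mem_centralizer_singleton_of_comm (hcomm β hβR a hg)
  have hβa : β ∉ zpowers a := by
    intro hmem
    apply no_sq_inv u⁻¹ a hao
    · rw [inv_inv, ← hβ]; exact hmem
    · have e : (u⁻¹) ^ 2 = t := by
        rw [inv_pow, ← ht, htinv]
      rw [e]; exact hta
  have hβV : ∀ v ∈ V, β * v * β⁻¹ ∈ V :=
    fun v hv => (mem_normalizer_iff.mp (hCV hβC) v).mp hv
  have hβ3 : β * β * β = 1 := by
    have := pow_orderOf_eq_one β
    rw [hβo, pow_succ, pow_two] at this
    exact this
  obtain ⟨p, hp⟩ : ∃ p : G, p = v0 * (β * v0 * β⁻¹) * (β * (β * v0 * β⁻¹) * β⁻¹) := ⟨_, rfl⟩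
  have hpV : p ∈ V := by
    rw [hp]
    exact V.mul_mem (V.mul_mem hv0V (hβV v0 hv0V)) (hβV _ (hβV v0 hv0V))
  have hβp : β * p * β⁻¹ = p := by
    rw [hp]
    calc β * (v0 * (β * v0 * β⁻¹) * (β * (β * v0 * β⁻¹) * β⁻¹)) * β⁻¹
        = (β * v0 * β⁻¹) * (β * (β * v0 * β⁻¹) * β⁻¹) *
          ((β * β * β) * v0 * (β * β * β)⁻¹) := by group
      _ = (β * v0 * β⁻¹) * (β * (β * v0 * β⁻¹) * β⁻¹) * v0 := by rw [hβ3]; group
      _ = v0 * ((β * v0 * β⁻¹) * (β * (β * v0 * β⁻¹) * β⁻¹)) :=
          hVcomm _ (V.mul_mem (hβV v0 hv0V) (hβV _ (hβV v0 hv0V))) _ hv0V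
      _ = v0 * (β * v0 * β⁻¹) * (β * (β * v0 * β⁻¹) * β⁻¹) := by group
  have hp1 : p = 1 := by
    apply hVfpf β hβC hβo hβa p hpV
    calc β * p = (β * p * β⁻¹) * β := by group
      _ = p * β := by rw [hβp]
  have hrel0 : v0 * β * (v0 * β) * (v0 * β) = 1 := by
    calc v0 * β * (v0 * β) * (v0 * β)
        = v0 * (β * v0 * β⁻¹) * (β * (β * v0 * β⁻¹) * β⁻¹) * (β * β * β) := by group
      _ = 1 := by rw [← hp, hp1, hβ3, one_mul]
  obtain ⟨x, hx⟩ : ∃ x : G, x = v0 * u := ⟨_, rfl⟩
  obtain ⟨w, hw⟩ : ∃ w : G, w = x * v0 * x⁻¹ := ⟨_, rfl⟩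
  have hww : w * w = 1 := by
    rw [hw]
    calc x * v0 * x⁻¹ * (x * v0 * x⁻¹) = x * (v0 * v0) * x⁻¹ := by group
      _ = 1 := by rw [hv0v0]; group
  have hxβ : x * β * x⁻¹ = a := by
    rw [hx, hβ]
    calc v0 * u * (u⁻¹ * a * u) * (v0 * u)⁻¹ = v0 * a * v0⁻¹ := by group
      _ = a * v0 * v0⁻¹ := by rw [hv0a]
      _ = a := by group
  have hwa : (w * a) ^ 3 = 1 := by
    have e : w * a = x * (v0 * β) * x⁻¹ := by
      rw [hw, ← hxβ]; group
    rw [e, pow_succ, pow_two]
    calc x * (v0 * β) * x⁻¹ * (x * (v0 * β) * x⁻¹) * (x * (v0 * β) * x⁻¹)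
        = x * (v0 * β * (v0 * β) * (v0 * β)) * x⁻¹ := by group
      _ = 1 := by rw [hrel0]; group
  have hxt : x * t = t * x := by
    rw [hx]
    calc v0 * u * t = v0 * (u * t) := by group
      _ = v0 * (t * u) := by rw [htu]
      _ = (v0 * t) * u := by group
      _ = (t * v0) * u := by rw [htv0]
      _ = t * (v0 * u) := by group
  have hxC : x ∈ centralizer ({t} : Set G) := mem_centralizer_singleton_of_comm hxt
  have hv0C : v0 ∈ centralizer ({t} : Set G) := mem_centralizer_singleton_of_comm htv0.symm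
  have huC : u ∈ centralizer ({t} : Set G) := mem_centralizer_singleton_of_comm htu.symm
  have hnd := conj_mem_zpowers_of_comm_inv hG hno t d hto hdo htd
  have hconj_ne : ∀ g' : G, g' * d * g'⁻¹ ≠ 1 := by
    intro g' h
    apply hd1
    calc d = g'⁻¹ * (g' * d * g'⁻¹) * g' := by group
      _ = 1 := by rw [h]; group
  have hud : u * d * u⁻¹ = d⁻¹ := by
    rcases mem_zpowers_three_cases d _ hdo (hnd u huC) (hconj_ne u) with h | h
    · exfalso
      have huCd : u ∈ centralizer ({d} : Set G) := by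
        apply mem_centralizer_singleton_of_comm
        calc u * d = (u * d * u⁻¹) * u := by group
          _ = d * u := by rw [h]
      have huV := hVd3' u huCd (by rw [hu]; norm_num)
      have := hVdexp u huV
      have h2 : orderOf u ∣ 2 := orderOf_dvd_of_pow_eq_one (by rw [pow_two]; exact this)
      rw [hu] at h2
      omega
    · exact h
  have hv0d : v0 * d * v0⁻¹ = d⁻¹ := by
    rcases mem_zpowers_three_cases d _ hdo (hnd v0 hv0C) (hconj_ne v0) with h | h
    · exfalso
      have hdv0 : v0 * d = d * v0 := by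
        calc v0 * d = (v0 * d * v0⁻¹) * v0 := by group
          _ = d * v0 := by rw [h]
      have hdCv0 : d ∈ centralizer ({v0} : Set G) :=
        mem_centralizer_singleton_of_comm hdv0.symm
      have hna := conj_mem_zpowers_of_comm_inv hG hno v0 a hv0o hao hv0a
      have h24' := card_centralizer_inv hG hno v0 hv0o
      have haCv0 : a ∈ centralizer ({v0} : Set G) :=
        mem_centralizer_singleton_of_comm hv0a.symm
      obtain ⟨h0, hh0C, hh0⟩ := sylow_sub_conj (p := 3) (centralizer ({v0} : Set G))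
        (zpowers a) (zpowers_le.mpr haCv0) 1 8 (by rw [Nat.card_zpowers, hao]; norm_num)
        (by rw [h24']; norm_num) (by norm_num) (zpowers d) (zpowers_le.mpr hdCv0)
        (IsPGroup.of_card (n := 1) (by rw [Nat.card_zpowers, hdo]; norm_num))
      have h1 : h0 * d * h0⁻¹ ∈ zpowers a := hh0 d (mem_zpowers d)
      have hnorm : h0⁻¹ ∈ normalizer ((zpowers a : Subgroup G) : Set G) := by
        apply mem_normalizer_zpowers_of_conj_mem (by norm_num : Nat.Prime 3) a h0⁻¹ hao
        exact hna h0⁻¹ (Subgroup.inv_mem _ hh0C)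
      have h2 : h0⁻¹ * (h0 * d * h0⁻¹) * h0⁻¹⁻¹ ∈ zpowers a :=
        (mem_normalizer_iff.mp hnorm _).mp h1
      have h3 : d ∈ zpowers a := by
        have e : h0⁻¹ * (h0 * d * h0⁻¹) * h0⁻¹⁻¹ = d := by group
        rw [e] at h2; exact h2
      have h4 : zpowers d = zpowers a :=
        zpowers_eq_of_mem_of_card_prime (by norm_num : Nat.Prime 3) (zpowers a)
          (by rw [Nat.card_zpowers, hao]) d h3 hd1
      have h5 : a ∈ zpowers d := by rw [h4]; exact mem_zpowers a
      obtain ⟨k, hk⟩ := mem_zpowers_iff.mp h5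
      have h6 : t * a = a * t := by
        rw [← hk]
        exact (show Commute t d from htd).zpow_right k
      have h7 : a = a⁻¹ := by
        calc a = a * t * t⁻¹ := by group
          _ = t * a * t⁻¹ := by rw [h6]
          _ = a⁻¹ := hta
      have h8 : a * a = 1 := by
        calc a * a = a⁻¹ * a := by rw [← h7]
          _ = 1 := inv_mul_cancel a
      have h9 : orderOf a ∣ 2 := orderOf_dvd_of_pow_eq_one (by rw [pow_two]; exact h8)
      rw [hao] at h9
      omega
    · exact h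
  have hxd : x * d = d * x := by
    have e : x * d * x⁻¹ = d := by
      rw [hx]
      calc v0 * u * d * (v0 * u)⁻¹ = v0 * (u * d * u⁻¹) * v0⁻¹ := by group
        _ = v0 * d⁻¹ * v0⁻¹ := by rw [hud]
        _ = (v0 * d * v0⁻¹)⁻¹ := by group
        _ = d := by rw [hv0d, inv_inv]
    calc x * d = (x * d * x⁻¹) * x := by group
      _ = d * x := by rw [e]
  have hx24 : x ^ 24 = 1 := by
    have h1 : orderOf x ∣ 24 := by
      rw [← h24]; exact Subgroup.orderOf_dvd_natCard _ hxC
    exact orderOf_dvd_iff_pow_eq_one.mp h1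
  have hx3C : x ^ 3 ∈ centralizer ({d} : Set G) := by
    apply mem_centralizer_singleton_of_comm
    exact (show Commute x d from hxd).pow_left 3
  have hx3o : (orderOf (x ^ 3)).Coprime 3 := by
    have h1 : (x ^ 3) ^ 8 = 1 := by rw [← pow_mul]; exact hx24
    have h2 : orderOf (x ^ 3) ∣ 2 ^ 3 := orderOf_dvd_of_pow_eq_one h1
    exact Nat.Coprime.coprime_dvd_left h2 (by norm_num)
  have hx3V := hVd3' (x ^ 3) hx3C hx3o
  have hx6 : x ^ 3 * x ^ 3 = 1 := hVdexp _ hx3V
  have hK : x * u * x = t * u := by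
    rw [hx]
    calc v0 * u * u * (v0 * u) = v0 * (u * u) * v0 * u := by group
      _ = v0 * t * v0 * u := by rw [ht, pow_two]
      _ = (v0 * t) * v0 * u := by group
      _ = (t * v0) * v0 * u := by rw [htv0]
      _ = t * (v0 * v0) * u := by group
      _ = t * u := by rw [hv0v0, mul_one]
  have hxu : x * u = v0 * t := by
    rw [hx, ht, pow_two]; group
  have hv0eq : x * x * u * x = v0 := by
    calc x * x * u * x = x * (x * u * x) := by group
      _ = x * (t * u) := by rw [hK]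
      _ = (x * t) * u := by group
      _ = (t * x) * u := by rw [hxt]
      _ = t * (x * u) := by group
      _ = t * (v0 * t) := by rw [hxu]
      _ = (t * v0) * t := by group
      _ = (v0 * t) * t := by rw [htv0]
      _ = v0 * (t * t) := by group
      _ = v0 := by rw [htt, mul_one]
  have hw3 : w = x ^ 3 * u := by
    rw [hw, pow_succ, pow_two]
    calc x * v0 * x⁻¹ = x * (x * x * u * x) * x⁻¹ := by rw [hv0eq]
      _ = x * x * x * u := by group
  have hK3 : x ^ 3 * u * x ^ 3 = t * u := by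
    rw [pow_succ, pow_two]
    calc x * x * x * u * (x * x * x) = x * x * (x * u * x) * x * x := by group
      _ = x * x * (t * u) * x * x := by rw [hK]
      _ = x * (x * t) * u * x * x := by group
      _ = x * (t * x) * u * x * x := by rw [hxt]
      _ = (x * t) * (x * u * x) * x := by group
      _ = (t * x) * (t * u) * x := by rw [hxt, hK]
      _ = t * (x * t) * u * x := by group
      _ = t * (t * x) * u * x := by rw [hxt]
      _ = (t * t) * (x * u * x) := by group
      _ = t * u := by rw [htt, hK, one_mul]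
  have hwu : w * u * w⁻¹ = u⁻¹ := by
    have hx3inv : (x ^ 3)⁻¹ = x ^ 3 := inv_eq_of_mul_eq_one_left hx6
    have htu1 : t * u = u⁻¹ := by
      rw [eq_inv_iff_mul_eq_one, ht]
      calc u ^ 2 * u * u = u ^ 4 := by group
        _ = 1 := hu4
    rw [hw3]
    calc x ^ 3 * u * u * (x ^ 3 * u)⁻¹ = x ^ 3 * u * (x ^ 3)⁻¹ := by group
      _ = x ^ 3 * u * x ^ 3 := by rw [hx3inv]
      _ = t * u := hK3
      _ = u⁻¹ := htu1
  exact ⟨R, a, u, w, hg, hao, huN, hu, by rw [← ht]; exact hta, hww, hwu, hwa⟩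

end Cfsg.Agent.Lib.Helper52.A7
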