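import Mathlib
import Cfsg.Agent.Lib.Helper52.A7.Rel

/-!
Simple groups of order `2520`: existence of a subgroup of index `7`.

The subgroup generated by the elements `a`, `u`, `w` of `exists_rel` stabilizes a set of at
most `20` Sylow `3`-subgroups; this is a coset enumeration, carried out by hand.
-/

set_option autoImplicit false

namespace Cfsg.Agent.Lib.Helper52.A7

open Subgroup
open scoped Pointwise
open Cfsg.Agent.Lib.Helper17
open Cfsg.Agent.Lib.Helper52.PG7920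

section General

variable {G : Type*} [Group G]

/-- A subgroup containing an element `u` of order `4` and an involution inverting `u` has order
divisible by `8`. -/
theorem eight_dvd_of_dihedral [Finite G] (K : Subgroup G) (u w : G) (hu : orderOf u = 4)
    (hww : w * w = 1) (hwu : w * u * w⁻¹ = u⁻¹) (huK : u ∈ K) (hwK : w ∈ K) :
    8 ∣ Nat.card K := by
  have hp2 : Fact (Nat.Prime 2) := ⟨Nat.prime_two⟩
  by_contra h8
  have hT : zpowers u ≤ K := zpowers_le.mpr huK
  have h4 : 4 ∣ Nat.card K := by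
    have := Subgroup.card_dvd_of_le hT
    rw [Nat.card_zpowers, hu] at this; exact this
  obtain ⟨m, hm⟩ := h4
  have hmodd : ¬ 2 ∣ m := by
    intro h2
    apply h8
    obtain ⟨j, hj⟩ := h2
    rw [hm, hj]
    exact ⟨j, by ring⟩
  obtain ⟨P', hP'⟩ := sylow_sub_exists (p := 2) K (zpowers u) hT 2 m
    (by rw [Nat.card_zpowers, hu]; norm_num) (by rw [hm]; norm_num) hmodd
  have hu2ne : u⁻¹ ≠ u := by
    intro h
    have h2 : u * u = 1 := by
      calc u * u = u⁻¹ * u := by rw [h]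
        _ = 1 := inv_mul_cancel u
    have h3 : orderOf u ∣ 2 := orderOf_dvd_of_pow_eq_one (by rw [pow_two]; exact h2)
    rw [hu] at h3
    omega
  have hw1 : w ≠ 1 := by
    intro h
    rw [h] at hwu
    apply hu2ne
    rw [← hwu]; group
  have hwo : orderOf w = 2 := orderOf_eq_prime (by rw [pow_two]; exact hww) hw1
  have hwinv : w⁻¹ = w := inv_eq_of_mul_eq_one_left hww
  have hconj : ∀ h ∈ zpowers u, w * h * w⁻¹ ∈ zpowers u := by
    intro h hh
    obtain ⟨k, rfl⟩ := mem_zpowers_iff.mp hh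
    rw [← conj_zpow, hwu]
    exact zpow_mem (inv_mem (mem_zpowers u)) k
  have hwN : (⟨w, hwK⟩ : K) ∈ normalizer ((P' : Subgroup K) : Set K) := by
    rw [hP', mem_normalizer_iff]
    intro h
    rw [mem_subgroupOf, mem_subgroupOf]
    constructor
    · intro hh
      simpa using hconj _ hh
    · intro hh
      have h1 : w * (h : G) * w⁻¹ ∈ zpowers u := by simpa using hh
      have h2 := hconj _ h1
      have e : w * (w * (h : G) * w⁻¹) * w⁻¹ = (h : G) := by
        rw [hwinv]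
        calc w * (w * (h : G) * w) * w = (w * w) * (h : G) * (w * w) := by group
          _ = (h : G) := by rw [hww, one_mul, mul_one]
      rw [e] at h2
      exact h2
  have hwo' : orderOf (⟨w, hwK⟩ : K) = 2 ^ 1 := by
    rw [← Subgroup.orderOf_coe]
    simpa using hwo
  have hwP := mem_sylow_of_mem_normalizer_of_orderOf 2 P' ⟨w, hwK⟩ hwN 1 hwo'
  rw [hP', mem_subgroupOf] at hwP
  obtain ⟨k, hk⟩ := mem_zpowers_iff.mp hwP
  have hk' : u ^ k = w := hk
  have hcomm : w * u = u * w := by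
    rw [← hk']
    exact ((Commute.refl u).zpow_left k).eq
  apply hu2ne
  rw [← hwu]
  calc w * u * w⁻¹ = u * w * w⁻¹ := by rw [hcomm]
    _ = u := by group

/-- Factorization of a group as a product of two subgroups with trivial intersection. -/
theorem exists_mul_of_disjoint [Finite G] (N A B : Subgroup G) (hA : A ≤ N) (hB : B ≤ N)
    (hcard : Nat.card A * Nat.card B = Nat.card N) (hdisj : ∀ x ∈ A, x ∈ B → x = 1) :
    ∀ n ∈ N, ∃ a ∈ A, ∃ b ∈ B, n = a * b := by
  intro n hn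
  have hA' : Nat.card (A.subgroupOf N) = Nat.card A :=
    Nat.card_congr (subgroupOfEquivOfLe hA).toEquiv
  have hB' : Nat.card (B.subgroupOf N) = Nat.card B :=
    Nat.card_congr (subgroupOfEquivOfLe hB).toEquiv
  have hd : Disjoint (A.subgroupOf N) (B.subgroupOf N) := by
    rw [disjoint_iff, eq_bot_iff]
    intro x hx
    rw [Subgroup.mem_bot]
    apply Subtype.ext
    have hx' := Subgroup.mem_inf.mp hx
    exact hdisj x.1 (mem_subgroupOf.mp hx'.1) (mem_subgroupOf.mp hx'.2)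
  have hc : IsComplement' (A.subgroupOf N) (B.subgroupOf N) :=
    isComplement'_of_card_mul_and_disjoint (by rw [hA', hB', hcard]) hd
  obtain ⟨x, hx, -⟩ := (isComplement_iff_existsUnique.mp hc) ⟨n, hn⟩
  refine ⟨(x.1.1 : G), mem_subgroupOf.mp (SetLike.mem_coe.mp x.1.2), (x.2.1 : G),
    mem_subgroupOf.mp (SetLike.mem_coe.mp x.2.2), ?_⟩
  have := congrArg Subtype.val hx
  simpa using this.symm

end General

variable {G : Type*} [Group G] [Finite G] [IsSimpleGroup G]

set_option maxHeartbeats 1600000 in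
/-- The relations of `exists_rel` are contradictory when there is no subgroup of index `7`. -/
theorem no_rel (hG : Nat.card G = 2520) (hno : ∀ H : Subgroup G, H.index ≠ 7)
    (R : Sylow 3 G) (a u w : G) (haR : a ∈ (R : Subgroup G)) (hao : orderOf a = 3)
    (huN : u ∈ normalizer ((R : Subgroup G) : Set G)) (hu : orderOf u = 4)
    (hinv : u ^ 2 * a * (u ^ 2)⁻¹ = a⁻¹) (hww : w * w = 1) (hwu : w * u * w⁻¹ = u⁻¹)
    (hwa : (w * a) ^ 3 = 1) : False := by
  have hp3 : Fact (Nat.Prime 3) := ⟨by norm_num⟩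
  have hp2 : Fact (Nat.Prime 2) := ⟨Nat.prime_two⟩
  have hR := card_sylow3_sub hG R
  have hN := card_normalizer3 hG hno R
  have hcomm := sylow3_comm hG R
  have hto : orderOf (u ^ 2) = 2 := orderOf_sq_of_four u hu
  have htN : u ^ 2 ∈ normalizer ((R : Subgroup G) : Set G) := Subgroup.pow_mem _ huN 2
  obtain ⟨t, ht⟩ : ∃ t : G, t = u ^ 2 := ⟨_, rfl⟩
  rw [← ht] at hinv hto htN
  have htt : t * t = 1 := by rw [← pow_two, ← hto, pow_orderOf_eq_one]
  have htinv : t⁻¹ = t := inv_eq_of_mul_eq_one_left htt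
  have hwinv : w⁻¹ = w := inv_eq_of_mul_eq_one_left hww
  have htu : t * u = u * t := by rw [ht, pow_two]; group
  obtain ⟨b, hb⟩ : ∃ b : G, b = u * a * u⁻¹ := ⟨_, rfl⟩
  have hbR : b ∈ (R : Subgroup G) := by rw [hb]; exact (mem_normalizer_iff.mp huN a).mp haR
  have hbo : orderOf b = 3 := by rw [hb, orderOf_conj_eq, hao]
  have hba : b ∉ zpowers a := by
    intro h
    rw [hb] at h
    exact no_sq_inv u a hao h (by rw [← ht]; exact hinv)
  have hab : a * b = b * a := hcomm a haR b hbR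
  have ha3 : a * a * a = 1 := by
    have := pow_orderOf_eq_one a
    rw [hao, pow_succ, pow_two] at this; exact this
  have hb3 : b * b * b = 1 := by
    have := pow_orderOf_eq_one b
    rw [hbo, pow_succ, pow_two] at this; exact this
  have haa : a⁻¹ * a⁻¹ = a := by
    calc a⁻¹ * a⁻¹ = a⁻¹ * a⁻¹ * (a * a * a) := by rw [ha3, mul_one]
      _ = a := by group
  have hbb : b⁻¹ * b⁻¹ = b := by
    calc b⁻¹ * b⁻¹ = b⁻¹ * b⁻¹ * (b * b * b) := by rw [hb3, mul_one]
      _ = b := by group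
  have hbb' : b * b = b⁻¹ := by
    calc b * b = (b * b * b) * b⁻¹ := by group
      _ = b⁻¹ := by rw [hb3, one_mul]
  have hab' : b⁻¹ * a = a * b⁻¹ := by
    calc b⁻¹ * a = b⁻¹ * (a * b) * b⁻¹ := by group
      _ = b⁻¹ * (b * a) * b⁻¹ := by rw [hab]
      _ = a * b⁻¹ := by group
  have hab'' : b⁻¹ * a⁻¹ = a⁻¹ * b⁻¹ := by
    calc b⁻¹ * a⁻¹ = (a * b)⁻¹ := by group
      _ = (b * a)⁻¹ := by rw [hab]
      _ = a⁻¹ * b⁻¹ := by group
  have hab3 : b * a⁻¹ = a⁻¹ * b := by
    calc b * a⁻¹ = a⁻¹ * (a * b) * a⁻¹ := by group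
      _ = a⁻¹ * (b * a) * a⁻¹ := by rw [hab]
      _ = a⁻¹ * b := by group
  have hta : t * a * t⁻¹ = a⁻¹ := hinv
  have hta' : t * a⁻¹ * t⁻¹ = a := by
    calc t * a⁻¹ * t⁻¹ = (t * a * t⁻¹)⁻¹ := by group
      _ = a := by rw [hta, inv_inv]
  have hub : u * b * u⁻¹ = a⁻¹ := by
    rw [hb, ← hinv, ht, pow_two]; group
  have htb : t * b * t⁻¹ = b⁻¹ := by
    rw [hb]
    calc t * (u * a * u⁻¹) * t⁻¹ = (t * u) * a * (t * u)⁻¹ := by group
      _ = (u * t) * a * (u * t)⁻¹ := by rw [htu]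
      _ = u * (t * a * t⁻¹) * u⁻¹ := by group
      _ = u * a⁻¹ * u⁻¹ := by rw [hta]
      _ = (u * a * u⁻¹)⁻¹ := by group
  have htb' : t * b⁻¹ * t⁻¹ = b := by
    calc t * b⁻¹ * t⁻¹ = (t * b * t⁻¹)⁻¹ := by group
      _ = b := by rw [htb, inv_inv]
  have huw : u * w = w * u⁻¹ := by
    symm
    calc w * u⁻¹ = w * (w * u * w⁻¹) := by rw [hwu]
      _ = (w * w) * u * w⁻¹ := by group
      _ = u * w := by rw [hww, one_mul, hwinv]
  have hu'w : u⁻¹ * w = w * u := by
    calc u⁻¹ * w = u⁻¹ * (w * u⁻¹) * u := by group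
      _ = u⁻¹ * (u * w) * u := by rw [huw]
      _ = w * u := by group
  have htw : t * w = w * t := by
    calc t * w = u * (u * w) := by rw [ht, pow_two]; group
      _ = u * (w * u⁻¹) := by rw [huw]
      _ = (u * w) * u⁻¹ := by group
      _ = w * u⁻¹ * u⁻¹ := by rw [huw]
      _ = w * (u * u)⁻¹ := by group
      _ = w * t := by rw [← pow_two, ← ht, htinv]
  have huwu : u * w * u⁻¹ = w * t := by
    calc u * w * u⁻¹ = w * u⁻¹ * u⁻¹ := by rw [huw]
      _ = w * (u * u)⁻¹ := by group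
      _ = w * t := by rw [← pow_two, ← ht, htinv]
  have I1 : w * a * w = a⁻¹ * w * a⁻¹ := by
    have h1 : w * a * (w * a) * (w * a) = 1 := by rw [← hwa, pow_succ, pow_two]
    calc w * a * w = (w * a * (w * a) * (w * a)) * (a⁻¹ * w⁻¹ * a⁻¹) := by group
      _ = a⁻¹ * w * a⁻¹ := by rw [h1, hwinv, one_mul]
  have I1' : w * a⁻¹ * w = a * w * a := by
    calc w * a⁻¹ * w = w⁻¹ * a⁻¹ * w⁻¹ := by rw [hwinv]
      _ = (w * a * w)⁻¹ := by group
      _ = (a⁻¹ * w * a⁻¹)⁻¹ := by rw [I1]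
      _ = a * w⁻¹ * a := by group
      _ = a * w * a := by rw [hwinv]
  have hc1 : u * (w * a * w) * u⁻¹ = (w * t) * b * (w * t) := by
    rw [← huwu, hb]; group
  have hc2 : u * (a⁻¹ * w * a⁻¹) * u⁻¹ = b⁻¹ * (w * t) * b⁻¹ := by
    rw [← huwu, hb]; group
  have hc3 : (w * t) * b * (w * t) = b⁻¹ * (w * t) * b⁻¹ := by rw [← hc1, ← hc2, I1]
  have I2' : w * b⁻¹ * w = b⁻¹ * w * b * t := by
    calc w * b⁻¹ * w = w * (t * b * t⁻¹) * w := by rw [htb]
      _ = (w * t) * b * (t⁻¹ * w) := by group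
      _ = (w * t) * b * (w * t) := by rw [htinv, htw]
      _ = b⁻¹ * (w * t) * b⁻¹ := hc3
      _ = b⁻¹ * w * (t * b⁻¹ * t⁻¹) * t := by group
      _ = b⁻¹ * w * b * t := by rw [htb']
  have I2 : w * b * w = b * w * b⁻¹ * t := by
    calc w * b * w = (w⁻¹ * b⁻¹ * w⁻¹)⁻¹ := by group
      _ = (w * b⁻¹ * w)⁻¹ := by rw [hwinv]
      _ = (b⁻¹ * w * b * t)⁻¹ := by rw [I2']
      _ = t⁻¹ * b⁻¹ * w⁻¹ * b := by group
      _ = t * b⁻¹ * w * b := by rw [htinv, hwinv]
      _ = (t * b⁻¹ * t⁻¹) * (t * w) * b := by group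
      _ = b * (w * t) * b := by rw [htb', htw]
      _ = b * w * (t * b * t⁻¹) * t := by group
      _ = b * w * b⁻¹ * t := by rw [htb]
  have hfix : ∀ n ∈ normalizer ((R : Subgroup G) : Set G), n • R = R :=
    fun n hn => Sylow.smul_eq_iff_mem_normalizer.mpr hn
  have haN : a ∈ normalizer ((R : Subgroup G) : Set G) := le_normalizer haR
  have hbN : b ∈ normalizer ((R : Subgroup G) : Set G) := le_normalizer hbR
  have key : ∀ (g1 g2 n : G), g1 = g2 * n → n ∈ normalizer ((R : Subgroup G) : Set G) →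
      g1 • R = g2 • R := by
    intro g1 g2 n h hn
    rw [h, mul_smul, hfix n hn]
  obtain ⟨e2, he2⟩ : ∃ e2 : G, e2 = w * a * b * w := ⟨_, rfl⟩
  have s1 : (w * b * w) * (w * a * w) = w * (b * a) * w := by
    calc (w * b * w) * (w * a * w) = w * b * (w * w) * a * w := by group
      _ = w * (b * a) * w := by rw [hww]; group
  have F1 : e2 = b * (w * a * b⁻¹ * w) * a * t := by
    rw [he2]
    calc w * a * b * w = w * (a * b) * w := by group
      _ = w * (b * a) * w := by rw [hab]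
      _ = (w * b * w) * (w * a * w) := s1.symm
      _ = (b * w * b⁻¹ * t) * (a⁻¹ * w * a⁻¹) := by rw [I2, I1]
      _ = b * w * b⁻¹ * (t * a⁻¹ * t⁻¹) * (t * w) * a⁻¹ := by group
      _ = b * w * b⁻¹ * a * (w * t) * a⁻¹ := by rw [hta', htw]
      _ = b * w * (b⁻¹ * a) * w * (t * a⁻¹ * t⁻¹) * t := by group
      _ = b * w * (a * b⁻¹) * w * a * t := by rw [hta', hab']
      _ = b * (w * a * b⁻¹ * w) * a * t := by group
  have F1' : w * a * b⁻¹ * w = b⁻¹ * e2 * (t⁻¹ * a⁻¹) := by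
    calc w * a * b⁻¹ * w = b⁻¹ * (b * (w * a * b⁻¹ * w) * a * t) * (t⁻¹ * a⁻¹) := by group
      _ = b⁻¹ * e2 * (t⁻¹ * a⁻¹) := by rw [← F1]
  have hu'a : u⁻¹ * a * u = b⁻¹ := by
    calc u⁻¹ * a * u = (u⁻¹ * a⁻¹ * u)⁻¹ := by group
      _ = (u⁻¹ * (u * b * u⁻¹) * u)⁻¹ := by rw [hub]
      _ = b⁻¹ := by group
  have hu'b : u⁻¹ * b * u = a := by rw [hb]; group
  obtain ⟨n3, hn3⟩ : ∃ n3 : G, n3 = t⁻¹ * a⁻¹ * u := ⟨_, rfl⟩
  have hn3N : n3 ∈ normalizer ((R : Subgroup G) : Set G) := by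
    rw [hn3]
    exact Subgroup.mul_mem _ (Subgroup.mul_mem _ (Subgroup.inv_mem _ htN)
      (Subgroup.inv_mem _ haN)) huN
  have E3 : u * e2 = b⁻¹ * e2 * n3 := by
    calc u * e2 = (u * w) * a * b * w := by rw [he2]; group
      _ = (w * u⁻¹) * a * b * w := by rw [huw]
      _ = w * (u⁻¹ * a * u) * (u⁻¹ * b * u) * (u⁻¹ * w) := by group
      _ = w * b⁻¹ * a * (w * u) := by rw [hu'a, hu'b, hu'w]
      _ = w * (b⁻¹ * a) * w * u := by group
      _ = w * (a * b⁻¹) * w * u := by rw [hab']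
      _ = (w * a * b⁻¹ * w) * u := by group
      _ = b⁻¹ * e2 * (t⁻¹ * a⁻¹) * u := by rw [F1']
      _ = b⁻¹ * e2 * (t⁻¹ * a⁻¹ * u) := by group
      _ = b⁻¹ * e2 * n3 := by rw [← hn3]
  obtain ⟨ey, hey⟩ : ∃ ey : G, ey = a⁻¹ * b * e2 := ⟨_, rfl⟩
  have E4 : u * ey = ey * n3 := by
    rw [hey]
    calc u * (a⁻¹ * b * e2) = (u * a * u⁻¹)⁻¹ * (u * b * u⁻¹) * (u * e2) := by group
      _ = b⁻¹ * a⁻¹ * (b⁻¹ * e2 * n3) := by rw [← hb, hub, E3]
      _ = (b⁻¹ * a⁻¹) * b⁻¹ * e2 * n3 := by group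
      _ = (a⁻¹ * b⁻¹) * b⁻¹ * e2 * n3 := by rw [hab'']
      _ = a⁻¹ * (b⁻¹ * b⁻¹) * e2 * n3 := by group
      _ = a⁻¹ * b * e2 * n3 := by rw [hbb]
  have s2 : (w * a⁻¹ * w) * (w * b * w) = w * a⁻¹ * b * w := by
    calc (w * a⁻¹ * w) * (w * b * w) = w * a⁻¹ * (w * w) * b * w := by group
      _ = w * a⁻¹ * b * w := by rw [hww]; group
  have F2 : w * a⁻¹ * b * w = a * e2 * b⁻¹ * t := by
    calc w * a⁻¹ * b * w = (w * a⁻¹ * w) * (w * b * w) := s2.symm
      _ = (a * w * a) * (b * w * b⁻¹ * t) := by rw [I1', I2]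
      _ = a * (w * a * b * w) * b⁻¹ * t := by group
      _ = a * e2 * b⁻¹ * t := by rw [← he2]
  have E5 : w * b * e2 = a * b * e2 * b⁻¹ := by
    calc w * b * e2 = (w * b * w) * (a * b * w) := by rw [he2]; group
      _ = (b * w * b⁻¹ * t) * (a * b * w) := by rw [I2]
      _ = b * w * b⁻¹ * (t * a * t⁻¹) * (t * b * t⁻¹) * (t * w) := by group
      _ = b * w * b⁻¹ * a⁻¹ * b⁻¹ * (w * t) := by rw [hta, htb, htw]
      _ = b * w * ((b⁻¹ * a⁻¹) * b⁻¹) * w * t := by group
      _ = b * w * ((a⁻¹ * b⁻¹) * b⁻¹) * w * t := by rw [hab'']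
      _ = b * w * (a⁻¹ * (b⁻¹ * b⁻¹)) * w * t := by group
      _ = b * w * (a⁻¹ * b) * w * t := by rw [hbb]
      _ = b * (w * a⁻¹ * b * w) * t := by group
      _ = b * (a * e2 * b⁻¹ * t) * t := by rw [F2]
      _ = (b * a) * e2 * b⁻¹ * (t * t) := by group
      _ = a * b * e2 * b⁻¹ := by rw [← hab, htt, mul_one]
  have E5' : w * (a * b * e2) = b * e2 * b := by
    calc w * (a * b * e2) = w * ((a * b * e2 * b⁻¹) * b) := by group
      _ = w * ((w * b * e2) * b) := by rw [E5]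
      _ = (w * w) * b * e2 * b := by group
      _ = b * e2 * b := by rw [hww, one_mul]
  have E6 : w * b⁻¹ * e2 = a * b⁻¹ * w * (a * t) := by
    calc w * b⁻¹ * e2 = w * b⁻¹ * (b * (w * a * b⁻¹ * w) * a * t) := by rw [← F1]
      _ = (w * w) * a * b⁻¹ * w * (a * t) := by group
      _ = a * b⁻¹ * w * (a * t) := by rw [hww, one_mul]
  have E7 : u * (w * ey) = w * ey * n3⁻¹ := by
    calc u * (w * ey) = (u * w) * ey := by group
      _ = (w * u⁻¹) * ey := by rw [huw]
      _ = w * (u⁻¹ * (ey * n3) * n3⁻¹) := by group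
      _ = w * (u⁻¹ * (u * ey) * n3⁻¹) := by rw [E4]
      _ = w * ey * n3⁻¹ := by group
  have haw : a * w * a⁻¹ = w * a⁻¹ * w * a := by
    calc a * w * a⁻¹ = (a * w * a) * (a⁻¹ * a⁻¹) := by group
      _ = (w * a⁻¹ * w) * a := by rw [← I1', haa]
  have E8 : a * (w * ey) = w * ey * b := by
    rw [hey]
    calc a * (w * (a⁻¹ * b * e2)) = (a * w * a⁻¹) * (b * e2) := by group
      _ = (w * a⁻¹ * w * a) * (b * e2) := by rw [haw]
      _ = w * a⁻¹ * (w * (a * b * e2)) := by group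
      _ = w * a⁻¹ * (b * e2 * b) := by rw [E5']
      _ = w * (a⁻¹ * b * e2) * b := by group
  -- the points
  obtain ⟨x1, hx1⟩ : ∃ x1 : Sylow 3 G, x1 = w • R := ⟨_, rfl⟩
  obtain ⟨x2, hx2⟩ : ∃ x2 : Sylow 3 G, x2 = e2 • R := ⟨_, rfl⟩
  obtain ⟨y2, hy2⟩ : ∃ y2 : Sylow 3 G, y2 = ey • R := ⟨_, rfl⟩
  obtain ⟨x3, hx3⟩ : ∃ x3 : Sylow 3 G, x3 = (w * ey) • R := ⟨_, rfl⟩
  have P1 : u • x1 = x1 := by
    rw [hx1]
    calc u • w • R = (u * w) • R := by simp only [mul_smul]
      _ = w • R := key _ _ u⁻¹ huw (Subgroup.inv_mem _ huN)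
  have P2 : w • a • x1 = a⁻¹ • x1 := by
    rw [hx1]
    calc w • a • w • R = (w * a * w) • R := by simp only [mul_smul]
      _ = (a⁻¹ * w) • R := key _ _ a⁻¹ I1 (Subgroup.inv_mem _ haN)
      _ = a⁻¹ • w • R := by simp only [mul_smul]
  have P12 : w • (a * b) • x1 = x2 := by
    rw [hx1, hx2, he2]
    simp only [mul_smul]
  have Pw1 : w • x1 = R := by
    rw [hx1, ← mul_smul, hww, one_smul]
  have P3 : u • x2 = b⁻¹ • x2 := by
    rw [hx2]
    calc u • e2 • R = (u * e2) • R := by simp only [mul_smul]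
      _ = (b⁻¹ * e2) • R := key _ _ n3 E3 hn3N
      _ = b⁻¹ • e2 • R := by simp only [mul_smul]
  have Py : y2 = (a⁻¹ * b) • x2 := by
    rw [hy2, hx2, hey]; simp only [mul_smul]
  have P4 : u • y2 = y2 := by
    rw [hy2]
    calc u • ey • R = (u * ey) • R := by simp only [mul_smul]
      _ = ey • R := by rw [E4, mul_smul, hfix n3 hn3N]
  have P5 : w • b • x2 = (a * b) • x2 := by
    rw [hx2]
    calc w • b • e2 • R = (w * b * e2) • R := by simp only [mul_smul]
      _ = (a * b * e2) • R := key _ _ b⁻¹ E5 (Subgroup.inv_mem _ hbN)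
      _ = (a * b) • e2 • R := by simp only [mul_smul]
  have P6 : w • b⁻¹ • x2 = (a * b⁻¹) • x1 := by
    rw [hx2, hx1]
    calc w • b⁻¹ • e2 • R = (w * b⁻¹ * e2) • R := by simp only [mul_smul]
      _ = (a * b⁻¹ * w) • R := key _ _ (a * t) E6 (Subgroup.mul_mem _ haN htN)
      _ = (a * b⁻¹) • w • R := by simp only [mul_smul]
  have P7 : u • x3 = x3 := by
    rw [hx3]
    calc u • (w * ey) • R = (u * (w * ey)) • R := by simp only [mul_smul]
      _ = (w * ey) • R := key _ _ n3⁻¹ E7 (Subgroup.inv_mem _ hn3N)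
  have P8 : a • x3 = x3 := by
    rw [hx3]
    calc a • (w * ey) • R = (a * (w * ey)) • R := by simp only [mul_smul]
      _ = (w * ey) • R := key _ _ b E8 hbN
  have Pw3 : w • x3 = y2 := by
    rw [hx3, hy2, ← mul_smul, ← mul_assoc, hww, one_mul]
  -- the set of points
  obtain ⟨Y, hY⟩ : ∃ Y : Set (Sylow 3 G), Y = {p | p = R ∨ p = x3 ∨
      (∃ r ∈ (R : Subgroup G), p = r • x1) ∨ (∃ r ∈ (R : Subgroup G), p = r • x2)} := ⟨_, rfl⟩
  have hYfin : Y.Finite := Set.toFinite Y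
  have hmemY : ∀ p, p ∈ Y ↔ (p = R ∨ p = x3 ∨ (∃ r ∈ (R : Subgroup G), p = r • x1) ∨
      (∃ r ∈ (R : Subgroup G), p = r • x2)) := by
    intro p; rw [hY]; rfl
  have hY1 : ∀ r ∈ (R : Subgroup G), r • x1 ∈ Y :=
    fun r hr => (hmemY _).mpr (Or.inr (Or.inr (Or.inl ⟨r, hr, rfl⟩)))
  have hY2 : ∀ r ∈ (R : Subgroup G), r • x2 ∈ Y :=
    fun r hr => (hmemY _).mpr (Or.inr (Or.inr (Or.inr ⟨r, hr, rfl⟩)))
  have hY0 : R ∈ Y := (hmemY _).mpr (Or.inl rfl)
  have hY3 : x3 ∈ Y := (hmemY _).mpr (Or.inr (Or.inl rfl))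
  have haS : a ∈ MulAction.stabilizer G Y := by
    rw [MulAction.mem_stabilizer_set' hYfin]
    intro p hp
    rcases (hmemY p).mp hp with h0 | h0 | ⟨r, hr, h0⟩ | ⟨r, hr, h0⟩
    · rw [h0, hfix a haN]; exact hY0
    · rw [h0, P8]; exact hY3
    · rw [h0, ← mul_smul]; exact hY1 _ (Subgroup.mul_mem _ haR hr)
    · rw [h0, ← mul_smul]; exact hY2 _ (Subgroup.mul_mem _ haR hr)
  have huS : u ∈ MulAction.stabilizer G Y := by
    rw [MulAction.mem_stabilizer_set' hYfin]
    intro p hp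
    rcases (hmemY p).mp hp with h0 | h0 | ⟨r, hr, h0⟩ | ⟨r, hr, h0⟩
    · rw [h0, hfix u huN]; exact hY0
    · rw [h0, P7]; exact hY3
    · have e : u • r • x1 = (u * r * u⁻¹) • x1 := by
        calc u • r • x1 = (u * r * u⁻¹) • u • x1 := by simp only [mul_smul, inv_smul_smul]
          _ = (u * r * u⁻¹) • x1 := by rw [P1]
      rw [h0, e]; exact hY1 _ ((mem_normalizer_iff.mp huN r).mp hr)
    · have e : u • r • x2 = (u * r * u⁻¹ * b⁻¹) • x2 := by
        calc u • r • x2 = (u * r * u⁻¹) • u • x2 := by simp only [mul_smul, inv_smul_smul]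
          _ = (u * r * u⁻¹) • b⁻¹ • x2 := by rw [P3]
          _ = (u * r * u⁻¹ * b⁻¹) • x2 := by simp only [mul_smul]
      rw [h0, e]
      exact hY2 _ (Subgroup.mul_mem _ ((mem_normalizer_iff.mp huN r).mp hr)
        (Subgroup.inv_mem _ hbR))
  have hTS : zpowers u ≤ MulAction.stabilizer G Y := zpowers_le.mpr huS
  have hT1 : zpowers u ≤ MulAction.stabilizer G x1 :=
    zpowers_le.mpr (MulAction.mem_stabilizer_iff.mpr P1)
  have hTy : zpowers u ≤ MulAction.stabilizer G y2 :=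
    zpowers_le.mpr (MulAction.mem_stabilizer_iff.mpr P4)
  have hwc : ∀ c ∈ zpowers u, w * c = c⁻¹ * w := by
    intro c hc
    obtain ⟨k, rfl⟩ := mem_zpowers_iff.mp hc
    have h1 : w * u ^ k * w⁻¹ = (u ^ k)⁻¹ := by rw [← conj_zpow, hwu, inv_zpow]
    calc w * u ^ k = (w * u ^ k * w⁻¹) * w := by group
      _ = (u ^ k)⁻¹ * w := by rw [h1]
  have hYc : ∀ c ∈ zpowers u, ∀ p ∈ Y, c • p ∈ Y := by
    intro c hc p hp
    exact (MulAction.mem_stabilizer_set' hYfin).mp (hTS hc) hp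
  have hdecomp : ∀ r ∈ (R : Subgroup G), ∃ α ∈ zpowers a, ∃ β ∈ zpowers b, r = α * β := by
    intro r hr
    exact exists_mul_of_disjoint (R : Subgroup G) (zpowers a) (zpowers b)
      (zpowers_le.mpr haR) (zpowers_le.mpr hbR)
      (by rw [Nat.card_zpowers, Nat.card_zpowers, hao, hbo, hR])
      (by
        intro x hxa hxb
        by_contra hx1
        apply hba
        have h1 := zpowers_eq_of_mem_of_card_prime (by norm_num : Nat.Prime 3) (zpowers b)
          (by rw [Nat.card_zpowers, hbo]) x hxb hx1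
        have h2 : zpowers x ≤ zpowers a := zpowers_le.mpr hxa
        rw [h1] at h2
        exact h2 (mem_zpowers b)) r hr
  have hDL : ∀ r ∈ (R : Subgroup G), r = 1 ∨
      ∃ c ∈ zpowers u, r = c * a * c⁻¹ ∨ r = c * (a * b) * c⁻¹ := by
    intro r hr
    obtain ⟨α, hα, β, hβ, hrαβ⟩ := hdecomp r hr
    have hu1 : u ∈ zpowers u := mem_zpowers u
    have ht1 : t ∈ zpowers u := by rw [ht]; exact pow_mem hu1 2
    have hut : u * t ∈ zpowers u := mul_mem hu1 ht1
    have e_a : a = (1 : G) * a * (1 : G)⁻¹ := by group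
    have e_ab : a * b = (1 : G) * (a * b) * (1 : G)⁻¹ := by group
    have c2 : a⁻¹ = t * a * t⁻¹ := hta.symm
    have c3 : b⁻¹ = (u * t) * a * (u * t)⁻¹ := by
      calc b⁻¹ = (u * a * u⁻¹)⁻¹ := by rw [← hb]
        _ = u * a⁻¹ * u⁻¹ := by group
        _ = u * (t * a * t⁻¹) * u⁻¹ := by rw [hta]
        _ = (u * t) * a * (u * t)⁻¹ := by group
    have d1 : u * (a * b) * u⁻¹ = a⁻¹ * b := by
      calc u * (a * b) * u⁻¹ = (u * a * u⁻¹) * (u * b * u⁻¹) := by group
        _ = b * a⁻¹ := by rw [← hb, hub]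
        _ = a⁻¹ * b := hab3
    have d2 : t * (a * b) * t⁻¹ = a⁻¹ * b⁻¹ := by
      calc t * (a * b) * t⁻¹ = (t * a * t⁻¹) * (t * b * t⁻¹) := by group
        _ = a⁻¹ * b⁻¹ := by rw [hta, htb]
    have d3 : (u * t) * (a * b) * (u * t)⁻¹ = a * b⁻¹ := by
      calc (u * t) * (a * b) * (u * t)⁻¹
          = u * ((t * a * t⁻¹) * (t * b * t⁻¹)) * u⁻¹ := by group
        _ = u * (a⁻¹ * b⁻¹) * u⁻¹ := by rw [hta, htb]
        _ = (u * a * u⁻¹)⁻¹ * (u * b * u⁻¹)⁻¹ := by group
        _ = b⁻¹ * a⁻¹⁻¹ := by rw [← hb, hub]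
        _ = a * b⁻¹ := by rw [inv_inv, hab']
    have hαc : α = 1 ∨ α = a ∨ α = a⁻¹ := by
      by_cases h : α = 1
      · left; exact h
      · right; exact mem_zpowers_three_cases a α hao hα h
    have hβc : β = 1 ∨ β = b ∨ β = b⁻¹ := by
      by_cases h : β = 1
      · left; exact h
      · right; exact mem_zpowers_three_cases b β hbo hβ h
    rcases hαc with h1 | h1 | h1 <;> rcases hβc with h2 | h2 | h2 <;> rw [hrαβ, h1, h2]
    · left; rw [mul_one]
    · right; exact ⟨u, hu1, Or.inl (by rw [one_mul]; exact hb)⟩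
    · right; exact ⟨u * t, hut, Or.inl (by rw [one_mul]; exact c3)⟩
    · right; exact ⟨1, one_mem _, Or.inl (by rw [mul_one]; exact e_a)⟩
    · right; exact ⟨1, one_mem _, Or.inr e_ab⟩
    · right; exact ⟨u * t, hut, Or.inr d3.symm⟩
    · right; exact ⟨t, ht1, Or.inl (by rw [mul_one]; exact c2)⟩
    · right; exact ⟨u, hu1, Or.inr d1.symm⟩
    · right; exact ⟨t, ht1, Or.inr d2.symm⟩
  have hwS : w ∈ MulAction.stabilizer G Y := by
    rw [MulAction.mem_stabilizer_set' hYfin]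
    intro p hp
    rcases (hmemY p).mp hp with h0 | h0 | ⟨r, hr, h0⟩ | ⟨r, hr, h0⟩
    · rw [h0, ← hx1]
      have := hY1 1 (one_mem _)
      rwa [one_smul] at this
    · rw [h0, Pw3, Py]
      exact hY2 _ (Subgroup.mul_mem _ (Subgroup.inv_mem _ haR) hbR)
    · rw [h0]
      rcases hDL r hr with h1 | ⟨c, hc, h1 | h1⟩
      · rw [h1, one_smul, Pw1]; exact hY0
      · have hcinv : c⁻¹ • x1 = x1 := MulAction.mem_stabilizer_iff.mp (hT1 (inv_mem hc))
        have e : w • r • x1 = c⁻¹ • a⁻¹ • x1 := by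
          rw [h1]
          calc w • (c * a * c⁻¹) • x1 = (w * c) • a • c⁻¹ • x1 := by simp only [mul_smul]
            _ = (c⁻¹ * w) • a • x1 := by rw [hwc c hc, hcinv]
            _ = c⁻¹ • w • a • x1 := by simp only [mul_smul]
            _ = c⁻¹ • a⁻¹ • x1 := by rw [P2]
        rw [e]
        exact hYc c⁻¹ (inv_mem hc) _ (hY1 _ (Subgroup.inv_mem _ haR))
      · have hcinv : c⁻¹ • x1 = x1 := MulAction.mem_stabilizer_iff.mp (hT1 (inv_mem hc))
        have e : w • r • x1 = c⁻¹ • x2 := by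
          rw [h1]
          calc w • (c * (a * b) * c⁻¹) • x1 = (w * c) • (a * b) • c⁻¹ • x1 := by
                simp only [mul_smul]
            _ = (c⁻¹ * w) • (a * b) • x1 := by rw [hwc c hc, hcinv]
            _ = c⁻¹ • w • (a * b) • x1 := by simp only [mul_smul]
            _ = c⁻¹ • x2 := by rw [P12]
        rw [e]
        have h2 := hY2 1 (one_mem _)
        rw [one_smul] at h2
        exact hYc c⁻¹ (inv_mem hc) _ h2
    · rw [h0]
      have hr' : r * (a⁻¹ * b)⁻¹ ∈ (R : Subgroup G) :=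
        Subgroup.mul_mem _ hr (Subgroup.inv_mem _
          (Subgroup.mul_mem _ (Subgroup.inv_mem _ haR) hbR))
      have e0 : r • x2 = (r * (a⁻¹ * b)⁻¹) • y2 := by
        rw [Py, ← mul_smul]
        congr 1
        group
      rcases hDL _ hr' with h1 | ⟨c, hc, h1 | h1⟩
      · rw [e0, h1, one_smul, ← Pw3, ← mul_smul, hww, one_smul]; exact hY3
      · have hcinv : c⁻¹ • y2 = y2 := MulAction.mem_stabilizer_iff.mp (hTy (inv_mem hc))
        have hay : a • y2 = b • x2 := by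
          rw [Py, ← mul_smul]; congr 1; group
        have e : w • r • x2 = c⁻¹ • (a * b) • x2 := by
          rw [e0, h1]
          calc w • (c * a * c⁻¹) • y2 = (w * c) • a • c⁻¹ • y2 := by simp only [mul_smul]
            _ = (c⁻¹ * w) • a • y2 := by rw [hwc c hc, hcinv]
            _ = c⁻¹ • w • b • x2 := by rw [hay]; simp only [mul_smul]
            _ = c⁻¹ • (a * b) • x2 := by rw [P5]
        rw [e]
        exact hYc c⁻¹ (inv_mem hc) _ (hY2 _ (Subgroup.mul_mem _ haR hbR))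
      · have hcinv : c⁻¹ • y2 = y2 := MulAction.mem_stabilizer_iff.mp (hTy (inv_mem hc))
        have haby : (a * b) • y2 = b⁻¹ • x2 := by
          rw [Py, ← mul_smul]; congr 1
          calc a * b * (a⁻¹ * b) = (a * b) * a⁻¹ * b := by group
            _ = (b * a) * a⁻¹ * b := by rw [hab]
            _ = b * b := by group
            _ = b⁻¹ := hbb'
        have e : w • r • x2 = c⁻¹ • (a * b⁻¹) • x1 := by
          rw [e0, h1]
          calc w • (c * (a * b) * c⁻¹) • y2 = (w * c) • (a * b) • c⁻¹ • y2 := by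
                simp only [mul_smul]
            _ = (c⁻¹ * w) • (a * b) • y2 := by rw [hwc c hc, hcinv]
            _ = c⁻¹ • w • b⁻¹ • x2 := by rw [haby]; simp only [mul_smul]
            _ = c⁻¹ • (a * b⁻¹) • x1 := by rw [P6]
        rw [e]
        exact hYc c⁻¹ (inv_mem hc) _
          (hY1 _ (Subgroup.mul_mem _ haR (Subgroup.inv_mem _ hbR)))
  -- the stabilizer of the set
  obtain ⟨H, hH⟩ : ∃ H : Subgroup G, H = MulAction.stabilizer G Y := ⟨_, rfl⟩
  rw [← hH] at haS huS hwS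
  have hYcard : Y.ncard ≤ 20 := by
    have hsub : Y ⊆ ({R, x3} : Set (Sylow 3 G)) ∪
        ((fun r : G => r • x1) '' ((R : Subgroup G) : Set G)) ∪
        ((fun r : G => r • x2) '' ((R : Subgroup G) : Set G)) := by
      intro p hp
      rcases (hmemY p).mp hp with h0 | h0 | ⟨r, hr, h0⟩ | ⟨r, hr, h0⟩
      · exact Or.inl (Or.inl (Set.mem_insert_iff.mpr (Or.inl h0)))
      · exact Or.inl (Or.inl (Set.mem_insert_iff.mpr (Or.inr (Set.mem_singleton_iff.mpr h0))))
      · exact Or.inl (Or.inr ⟨r, hr, h0.symm⟩)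
      · exact Or.inr ⟨r, hr, h0.symm⟩
    have hRn : ((R : Subgroup G) : Set G).ncard = 9 := by
      rw [← Nat.card_coe_set_eq]; exact hR
    have h1 := Set.ncard_le_ncard hsub (Set.toFinite _)
    have h2 := Set.ncard_union_le (({R, x3} : Set (Sylow 3 G)) ∪
      ((fun r : G => r • x1) '' ((R : Subgroup G) : Set G)))
      ((fun r : G => r • x2) '' ((R : Subgroup G) : Set G))
    have h3 := Set.ncard_union_le ({R, x3} : Set (Sylow 3 G))
      ((fun r : G => r • x1) '' ((R : Subgroup G) : Set G))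
    have h4 : ((fun r : G => r • x1) '' ((R : Subgroup G) : Set G)).ncard ≤ 9 := by
      rw [← hRn]; exact Set.ncard_image_le (Set.toFinite _)
    have h5 : ((fun r : G => r • x2) '' ((R : Subgroup G) : Set G)).ncard ≤ 9 := by
      rw [← hRn]; exact Set.ncard_image_le (Set.toFinite _)
    have h6 : ({R, x3} : Set (Sylow 3 G)).ncard ≤ 2 := by
      have := Set.ncard_insert_le R ({x3} : Set (Sylow 3 G))
      rw [Set.ncard_singleton] at this
      exact this
    omega
  have h70 := card_sylow3 hG hno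
  have hHtop : H ≠ ⊤ := by
    intro htop
    have huniv : Y = Set.univ := by
      rw [Set.eq_univ_iff_forall]
      intro p
      obtain ⟨g, hg⟩ := MulAction.exists_smul_eq G R p
      have hgH : g ∈ H := by rw [htop]; exact Subgroup.mem_top g
      rw [hH] at hgH
      have := (MulAction.mem_stabilizer_set' hYfin).mp hgH hY0
      rw [hg] at this
      exact this
    rw [huniv, Set.ncard_univ, h70] at hYcard
    omega
  have hHle := card_le_of_ne_top hG hno H hHtop
  have hHdvd := card_dvd_2520 hG H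
  have hbS : b ∈ H := by
    rw [hb]; exact H.mul_mem (H.mul_mem huS haS) (H.inv_mem huS)
  have hRH : (R : Subgroup G) ≤ H := by
    intro r hr
    obtain ⟨α, hα, β, hβ, hrαβ⟩ := hdecomp r hr
    rw [hrαβ]
    exact H.mul_mem ((zpowers_le.mpr haS) hα) ((zpowers_le.mpr hbS) hβ)
  have h9 : 9 ∣ Nat.card H := by rw [← hR]; exact Subgroup.card_dvd_of_le hRH
  have h8 : 8 ∣ Nat.card H := eight_dvd_of_dihedral H u w hu hww hwu huS hwS
  have h72 : Nat.card H = 72 := by
    have h72' : 72 ∣ Nat.card H := by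
      have : (8 * 9) ∣ Nat.card H := Nat.Coprime.mul_dvd_of_dvd_of_dvd (by norm_num) h8 h9
      simpa using this
    obtain ⟨k, hk⟩ := h72'
    rw [hk] at hHle hHdvd
    have hk35 : k ∣ 35 := by
      have : 72 * k ∣ 72 * 35 := by
        have e : 72 * 35 = 2520 := by norm_num
        rw [e]; exact hHdvd
      exact Nat.dvd_of_mul_dvd_mul_left (by norm_num) this
    have hk4 : k ≤ 4 := by omega
    have key' : ∀ k < 5, k ∣ 35 → k = 1 := by decide
    rw [hk, key' k (by omega) hk35]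
  obtain ⟨n, hn3', hn⟩ := sylow_sub_count (p := 3) H (R : Subgroup G) hRH 2 8
    (by rw [hR]; norm_num) (by rw [h72]; norm_num) (by norm_num)
  rw [h72] at hn
  have hRM : (R : Subgroup G) ≤ H ⊓ normalizer ((R : Subgroup G) : Set G) :=
    fun r hr => ⟨hRH hr, le_normalizer hr⟩
  have hTM : zpowers u ≤ H ⊓ normalizer ((R : Subgroup G) : Set G) :=
    zpowers_le.mpr ⟨huS, huN⟩
  have h9' : 9 ∣ Nat.card (H ⊓ normalizer ((R : Subgroup G) : Set G) : Subgroup G) := by
    rw [← hR]; exact Subgroup.card_dvd_of_le hRM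
  have h4' : 4 ∣ Nat.card (H ⊓ normalizer ((R : Subgroup G) : Set G) : Subgroup G) := by
    have := Subgroup.card_dvd_of_le hTM
    rw [Nat.card_zpowers, hu] at this; exact this
  have hM72 : Nat.card (H ⊓ normalizer ((R : Subgroup G) : Set G) : Subgroup G) = 72 := by
    have hMdvd : Nat.card (H ⊓ normalizer ((R : Subgroup G) : Set G) : Subgroup G) ∣ 72 :=
      Dvd.intro_left n hn
    have hle := Nat.le_of_dvd (by norm_num) hMdvd
    have key' : ∀ k < 73, (9 ∣ k ∧ 4 ∣ k ∧ k ∣ 72) → k = 36 ∨ k = 72 := by decide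
    rcases key' _ (by omega) ⟨h9', h4', hMdvd⟩ with h' | h'
    · exfalso; rw [h'] at hn; omega
    · exact h'
  have hwN : w ∈ normalizer ((R : Subgroup G) : Set G) := by
    have hMeq : H ⊓ normalizer ((R : Subgroup G) : Set G) = H :=
      Subgroup.eq_of_le_of_card_ge inf_le_left (by rw [hM72, h72])
    have : w ∈ H ⊓ normalizer ((R : Subgroup G) : Set G) := by rw [hMeq]; exact hwS
    exact this.2
  have h8' := eight_dvd_of_dihedral (normalizer ((R : Subgroup G) : Set G)) u w hu hww hwu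
    huN hwN
  rw [hN] at h8'
  omega

/-- A simple group of order `2520` has a subgroup of index `7`. -/
theorem exists_index_seven (hG : Nat.card G = 2520) : ∃ H : Subgroup G, H.index = 7 := by
  by_contra hcon
  have hno : ∀ H : Subgroup G, H.index ≠ 7 := fun H h => hcon ⟨H, h⟩
  obtain ⟨R, a, u, w, h1, h2, h3, h4, h5, h6, h7, h8⟩ := exists_rel hG hno
  exact no_rel hG hno R a u w h1 h2 h3 h4 h5 h6 h7 h8

end Cfsg.Agent.Lib.Helper52.A7
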